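import Mathlib

set_option autoImplicit false

/-!
Abstract lemmas on crossed homomorphisms (1-cocycles) with values in a module over the field
with two elements: extension from a normal subgroup of index at most two, and the vanishing
criterion for groups generated by orthogonal transvections.
-/

namespace Cfsg.Agent.Lib.Helper98.H1

theorem zmod2_cases (a : ZMod 2) : a = 0 ∨ a = 1 := by
  revert a; decide

section act

variable {G : Type*} [Group G] {V : Type*} [AddCommGroup V]

/-- A function `ρ : G → V → V` is an action by additive maps. -/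
structure IsAct (ρ : G → V → V) : Prop where
  one : ∀ v, ρ 1 v = v
  mul : ∀ g h v, ρ (g * h) v = ρ g (ρ h v)
  add : ∀ g v w, ρ g (v + w) = ρ g v + ρ g w

theorem IsAct.zero {ρ : G → V → V} (hρ : IsAct ρ) (g : G) : ρ g 0 = 0 := by
  have h := hρ.add g 0 0
  rw [add_zero] at h
  exact left_eq_add.mp h

/-- Crossed homomorphisms. -/
def IsCoc (ρ : G → V → V) (F : G → V) : Prop := ∀ g h, F (g * h) = F g + ρ g (F h)

theorem IsCoc.one {ρ : G → V → V} (hρ : IsAct ρ) {F : G → V} (hF : IsCoc ρ F) : F 1 = 0 := by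
  have h := hF 1 1
  rw [mul_one, hρ.one] at h
  exact left_eq_add.mp h

end act

section ext

open Classical

variable {G : Type*} [Group G] {V : Type*} [AddCommGroup V]

/-- Extension of a crossed homomorphism from a normal subgroup `N` with `G = N ∪ N s`, `s² = 1`,
in characteristic two, when the twist by `s` differs from it by the coboundary of an
`s`-fixed vector `x`. -/
theorem ext_coc (h2 : ∀ v : V, v + v = 0) {ρ : G → V → V} (hρ : IsAct ρ) (N : Subgroup G)
    [hN : N.Normal] (s : G) (hs : s * s = 1) (hcov : ∀ g, g ∈ N ∨ g * s ∈ N)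
    (f : G → V) (hf : ∀ g h, g ∈ N → h ∈ N → f (g * h) = f g + ρ g (f h))
    (x : V) (hx : ρ s x = x)
    (htw : ∀ w, w ∈ N → f (s * w * s) = ρ s (f w) + ρ s (ρ w x + x)) :
    IsCoc ρ (fun g => if g ∈ N then f g else f (g * s) + ρ g x) := by
  have hsinv : s⁻¹ = s := inv_eq_of_mul_eq_one_right hs
  have hss : ∀ v, ρ s (ρ s v) = v := fun v => by rw [← hρ.mul, hs, hρ.one]
  have hconj : ∀ w, w ∈ N → s * w * s ∈ N := by
    intro w hw
    have := hN.conj_mem w hw s
    rwa [hsinv] at this
  intro g h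
  by_cases hg : g ∈ N
  · by_cases hh : h ∈ N
    · have hgh : g * h ∈ N := N.mul_mem hg hh
      simp only [if_pos hg, if_pos hh, if_pos hgh]
      exact hf g h hg hh
    · have hgh : g * h ∉ N := fun hc => hh (by
        have := N.mul_mem (N.inv_mem hg) hc
        rwa [inv_mul_cancel_left] at this)
      have hhs : h * s ∈ N := (hcov h).resolve_left hh
      simp only [if_pos hg, if_neg hh, if_neg hgh]
      rw [mul_assoc, hf g (h * s) hg hhs, hρ.mul, hρ.add, add_assoc]
  · have hgs : g * s ∈ N := (hcov g).resolve_left hg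
    by_cases hh : h ∈ N
    · have hgh : g * h ∉ N := fun hc => hg (by
        have := N.mul_mem hc (N.inv_mem hh)
        rwa [mul_inv_cancel_right] at this)
      simp only [if_neg hg, if_pos hh, if_neg hgh]
      have e1 : g * h * s = (g * s) * (s * h * s) := by
        calc g * h * s = g * (s * s) * h * s := by rw [hs, mul_one]
          _ = (g * s) * (s * h * s) := by group
      rw [e1, hf _ _ hgs (hconj h hh), htw h hh, hρ.mul g s, ← hρ.add, hss, hρ.add, hρ.add,
        hρ.mul g h]
      have := h2 (ρ g (ρ h x))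
      -- f (g s) + (ρ g (f h) + (ρ g (ρ h x) + ρ g x)) + ρ g (ρ h x)
      calc f (g * s) + (ρ g (f h) + (ρ g (ρ h x) + ρ g x)) + ρ g (ρ h x)
          = f (g * s) + ρ g x + ρ g (f h) + (ρ g (ρ h x) + ρ g (ρ h x)) := by abel
        _ = f (g * s) + ρ g x + ρ g (f h) := by rw [this, add_zero]
    · have hhs : h * s ∈ N := (hcov h).resolve_left hh
      have e1 : g * h = (g * s) * (s * (h * s) * s) := by
        calc g * h = g * (s * s) * h * (s * s) := by rw [hs, mul_one, mul_one]
          _ = (g * s) * (s * (h * s) * s) := by group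
      have hgh : g * h ∈ N := by
        rw [e1]
        exact N.mul_mem hgs (hconj _ hhs)
      simp only [if_neg hg, if_neg hh, if_pos hgh]
      rw [e1, hf _ _ hgs (hconj _ hhs), htw _ hhs, hρ.mul g s, ← hρ.add, hss, hρ.add, hρ.add,
        hρ.add, hρ.mul h s, hx]
      abel

/-- If all crossed homomorphisms of `G` are principal, so are those of a normal subgroup `N`
with `G = N ∪ N s`, `s² = 1`, and no non-zero fixed vector (characteristic two). -/
theorem principal_of_index_two (h2 : ∀ v : V, v + v = 0) {ρ : G → V → V} (hρ : IsAct ρ)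
    (N : Subgroup G) [hN : N.Normal] (s : G) (hs : s * s = 1) (hcov : ∀ g, g ∈ N ∨ g * s ∈ N)
    (hfix : ∀ v, (∀ w, w ∈ N → ρ w v = v) → v = 0)
    (hO : ∀ F : G → V, IsCoc ρ F → ∃ x, ∀ g, F g = ρ g x + x)
    (f : G → V) (hf : ∀ g h, g ∈ N → h ∈ N → f (g * h) = f g + ρ g (f h)) :
    ∃ x, ∀ g, g ∈ N → f g = ρ g x + x := by
  have hsinv : s⁻¹ = s := inv_eq_of_mul_eq_one_right hs
  have hss : ∀ v, ρ s (ρ s v) = v := fun v => by rw [← hρ.mul, hs, hρ.one]
  have hconj : ∀ w, w ∈ N → s * w * s ∈ N := by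
    intro w hw
    have := hN.conj_mem w hw s
    rwa [hsinv] at this
  have hsss : ∀ w : G, s * (s * w * s) * s = w := by
    intro w
    calc s * (s * w * s) * s = (s * s) * w * (s * s) := by group
      _ = w := by rw [hs, one_mul, mul_one]
  -- the symmetrised crossed homomorphism
  set f₂ : G → V := fun w => f w + ρ s (f (s * w * s)) with hf₂
  have hf₂c : ∀ g h, g ∈ N → h ∈ N → f₂ (g * h) = f₂ g + ρ g (f₂ h) := by
    intro g h hg hh
    have e : s * (g * h) * s = (s * g * s) * (s * h * s) := by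
      calc s * (g * h) * s = s * g * (s * s) * h * s := by rw [hs, mul_one]; group
        _ = (s * g * s) * (s * h * s) := by group
    have e2 : s * (s * g * s) = g * s := by
      calc s * (s * g * s) = (s * s) * g * s := by group
        _ = g * s := by rw [hs, one_mul]
    simp only [hf₂]
    rw [hf g h hg hh, e, hf _ _ (hconj g hg) (hconj h hh), hρ.add, hρ.add,
      ← hρ.mul s (s * g * s), e2, hρ.mul g s]
    abel
  have hf₂tw : ∀ w, w ∈ N → f₂ (s * w * s) = ρ s (f₂ w) + ρ s (ρ w 0 + 0) := by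
    intro w _
    simp only [hf₂]
    rw [hsss, hρ.add, hss, add_zero, hρ.zero, hρ.zero, add_zero, add_comm]
  have hF₂ := ext_coc h2 hρ N s hs hcov f₂ hf₂c 0 (hρ.zero s) hf₂tw
  obtain ⟨x, hx⟩ := hO _ hF₂
  have hstar : ∀ w, w ∈ N → f w + ρ s (f (s * w * s)) = ρ w x + x := by
    intro w hw
    have := hx w
    simp only [if_pos hw, hf₂] at this
    exact this
  -- `x` is fixed by `s`
  have hsx : ρ s x = x := by
    have hz : ρ s x + x = 0 := by
      apply hfix
      intro w hw
      have a1 := hstar w hw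
      have a2 := hstar (s * w * s) (hconj w hw)
      rw [hsss, hρ.mul, hρ.mul] at a2
      have a3 : ρ s (f w) + f (s * w * s) = ρ s (ρ w x) + ρ s x := by
        rw [← hss (f (s * w * s)), ← hρ.add, a1, hρ.add]
      have a4 : ρ s (ρ w (ρ s x)) + x = ρ s (ρ w x) + ρ s x := by
        rw [← a2, ← a3, add_comm]
      have a5 : ρ w (ρ s x) + ρ s x = ρ w x + x := by
        have := congrArg (ρ s) a4
        rwa [hρ.add, hρ.add, hss, hss, hss] at this
      rw [hρ.add]
      have : ρ w (ρ s x) + ρ w x = ρ s x + x := by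
        calc ρ w (ρ s x) + ρ w x
            = (ρ w (ρ s x) + ρ s x) + ρ s x + ρ w x := by
              rw [add_assoc (ρ w (ρ s x)), h2, add_zero]
          _ = (ρ w x + x) + ρ s x + ρ w x := by rw [a5]
          _ = ρ s x + x + (ρ w x + ρ w x) := by abel
          _ = ρ s x + x := by rw [h2, add_zero]
      exact this
    calc ρ s x = ρ s x + (x + x) := by rw [h2, add_zero]
      _ = (ρ s x + x) + x := by abel
      _ = x := by rw [hz, zero_add]
  have htw : ∀ w, w ∈ N → f (s * w * s) = ρ s (f w) + ρ s (ρ w x + x) := by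
    intro w hw
    have a1 := hstar w hw
    have a3 : ρ s (f w) + f (s * w * s) = ρ s (ρ w x + x) := by
      rw [← hss (f (s * w * s)), ← hρ.add, a1]
    calc f (s * w * s) = (ρ s (f w) + ρ s (f w)) + f (s * w * s) := by rw [h2, zero_add]
      _ = ρ s (f w) + (ρ s (f w) + f (s * w * s)) := by abel
      _ = ρ s (f w) + ρ s (ρ w x + x) := by rw [a3]
  have hF := ext_coc h2 hρ N s hs hcov f hf x hsx htw
  obtain ⟨y, hy⟩ := hO _ hF
  refine ⟨y, fun g hg => ?_⟩
  have := hy g
  simp only [if_pos hg] at this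
  exact this

end ext

section refl

variable {G : Type*} [Group G] {V : Type*} [AddCommGroup V] [Module (ZMod 2) V]

theorem add_self_zmod2 (v : V) : v + v = 0 := by
  have : (2 : ZMod 2) • v = 0 := by
    have h : (2 : ZMod 2) = 0 := by decide
    rw [h, zero_smul]
  rwa [two_smul] at this

theorem smul_eq_smul_zmod2 {a b : ZMod 2} {z : V} (hz : z ≠ 0) (h : a • z = b • z) : a = b := by
  rcases zmod2_cases a with rfl | rfl <;> rcases zmod2_cases b with rfl | rfl
  · rfl
  · rw [zero_smul, one_smul] at h; exact absurd h.symm hz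
  · rw [zero_smul, one_smul] at h; exact absurd h hz
  · rfl

theorem IsAct.smul {ρ : G → V → V} (hρ : IsAct ρ) (g : G) (a : ZMod 2) (v : V) :
    ρ g (a • v) = a • ρ g v := by
  rcases zmod2_cases a with rfl | rfl
  · rw [zero_smul, zero_smul, hρ.zero]
  · rw [one_smul, one_smul]

omit [Module (ZMod 2) V] in
/-- The polar form attached to `Qf` is symmetric. -/
theorem polar_symm_aux (Qf : V → ZMod 2) (B : V → V → ZMod 2)
    (hQB : ∀ u w, Qf (u + w) = Qf u + Qf w + B u w) (u w : V) : B u w = B w u := by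
  have a := hQB u w
  have b := hQB w u
  rw [add_comm w u, a] at b
  have : Qf u + Qf w + B u w = Qf u + Qf w + B w u := by rw [b]; ring
  exact add_left_cancel this

theorem polar_self_aux (Qf : V → ZMod 2) (B : V → V → ZMod 2) (hQ0 : Qf 0 = 0)
    (hQB : ∀ u w, Qf (u + w) = Qf u + Qf w + B u w) (u : V) : B u u = 0 := by
  have a := hQB u u
  rw [add_self_zmod2, hQ0] at a
  have e : Qf u + Qf u = 0 := by
    rcases zmod2_cases (Qf u) with h | h <;> rw [h] <;> decide
  rw [e, zero_add] at a
  exact a.symm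

omit [Module (ZMod 2) V] in
theorem ne_zero_aux (Qf : V → ZMod 2) (hQ0 : Qf 0 = 0) (u : {u : V // Qf u = 1}) : u.1 ≠ 0 := by
  intro h0
  have := u.2
  rw [h0, hQ0] at this
  exact zero_ne_one this

/-- Crossed homomorphisms of a group generated by orthogonal transvections over the field with
two elements are principal, provided every locally additive function on the non-singular
vectors is the restriction of a linear form. -/
theorem principal_of_refl {ρ : G → V → V} (hρ : IsAct ρ) (Qf : V → ZMod 2) (B : V → V → ZMod 2)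
    (hQ0 : Qf 0 = 0) (hQB : ∀ u w, Qf (u + w) = Qf u + Qf w + B u w)
    (hBr : ∀ y u w, B y (u + w) = B y u + B y w)
    (r : {u : V // Qf u = 1} → G)
    (hact : ∀ (u : {u : V // Qf u = 1}) (y : V), ρ (r u) y = y + B y u.1 • u.1)
    (hrr : ∀ u, r u * r u = 1)
    (hcomm : ∀ u w : {u : V // Qf u = 1}, B u.1 w.1 = 0 → r u * r w = r w * r u)
    (hbraid : ∀ (u w : {u : V // Qf u = 1}) (h : Qf (u.1 + w.1) = 1),
      r u * r w * r u = r ⟨u.1 + w.1, h⟩)
    (hind : ∀ P : G → Prop, P 1 → (∀ u g, P g → P (r u * g)) → ∀ g, P g)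
    (hS : ∀ u y, Qf u = 1 → (∀ w, B u w = 0 → B y w = 0) → y = 0 ∨ y = u)
    (hL : ∀ c : V → ZMod 2,
      (∀ v w, Qf v = 1 → Qf w = 1 → Qf (v + w) = 1 → c (v + w) = c v + c w) →
      ∃ x, ∀ u, Qf u = 1 → c u = B x u) :
    ∀ F : G → V, IsCoc ρ F → ∃ x, ∀ g, F g = ρ g x + x := by
  intro F hF
  have h2 : ∀ v : V, v + v = 0 := add_self_zmod2
  have hF1 := hF.one hρ
  have hBsymm := polar_symm_aux Qf B hQB
  have hBself := polar_self_aux Qf B hQ0 hQB
  have hne := ne_zero_aux Qf hQ0
  -- Step 1
  have h1 : ∀ u : {u : V // Qf u = 1}, B (F (r u)) u.1 = 0 := by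
    intro u
    have a := hF (r u) (r u)
    rw [hrr, hF1, hact, ← add_assoc, h2, zero_add] at a
    rcases zmod2_cases (B (F (r u)) u.1) with h | h
    · exact h
    · rw [h, one_smul] at a
      exact absurd a.symm (hne u)
  -- Step 2
  have h2' : ∀ u w : {u : V // Qf u = 1}, B u.1 w.1 = 0 → B (F (r u)) w.1 = 0 := by
    intro u w huw
    by_cases hEq : u.1 = w.1
    · rw [← hEq]; exact h1 u
    · have a := hF (r u) (r w)
      have b := hF (r w) (r u)
      rw [hcomm u w huw, b, hact, hact] at a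
      have c : B (F (r u)) w.1 • w.1 = B (F (r w)) u.1 • u.1 := by
        have : F (r w) + F (r u) + B (F (r u)) w.1 • w.1
            = F (r w) + F (r u) + B (F (r w)) u.1 • u.1 := by
          rw [add_assoc, a]; abel
        exact add_left_cancel this
      rcases zmod2_cases (B (F (r u)) w.1) with h | h
      · exact h
      · rw [h, one_smul] at c
        rcases zmod2_cases (B (F (r w)) u.1) with h' | h'
        · rw [h', zero_smul] at c; exact absurd c (hne w)
        · rw [h', one_smul] at c; exact absurd c.symm hEq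
  -- Step 3
  have h3 : ∀ (u : {u : V // Qf u = 1}) (w : V), B u.1 w = 0 → B (F (r u)) w = 0 := by
    intro u w huw
    rcases zmod2_cases (Qf w) with hw | hw
    · have hwu : Qf (w + u.1) = 1 := by
        rw [hQB, hw, u.2, hBsymm, huw]; decide
      have a' : B (F (r u)) (w + u.1) = 0 :=
        h2' u ⟨w + u.1, hwu⟩ (by show B u.1 (w + u.1) = 0; rw [hBr, huw, hBself, add_zero])
      rw [hBr, h1 u, add_zero] at a'
      exact a'
    · exact h2' u ⟨w, hw⟩ huw
  -- Step 4
  have h4 : ∀ u : {u : V // Qf u = 1}, F (r u) = 0 ∨ F (r u) = u.1 :=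
    fun u => hS u.1 _ u.2 (h3 u)
  classical
  set c : V → ZMod 2 :=
    fun v => if h : Qf v = 1 then (if F (r ⟨v, h⟩) = 0 then 0 else 1) else 0 with hc
  have hcF : ∀ u : {u : V // Qf u = 1}, F (r u) = c u.1 • u.1 := by
    intro u
    have : c u.1 = if F (r u) = 0 then 0 else 1 := by
      simp only [hc, dif_pos u.2]
    rw [this]
    by_cases h0 : F (r u) = 0
    · rw [if_pos h0, zero_smul, h0]
    · rw [if_neg h0, one_smul]; exact (h4 u).resolve_left h0
  -- Step 5
  have hcadd : ∀ v w, Qf v = 1 → Qf w = 1 → Qf (v + w) = 1 → c (v + w) = c v + c w := by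
    intro v w hv hw hvw
    have hB : B v w = 1 := by
      have a := hQB v w
      rw [hvw, hv, hw] at a
      have e : (1 : ZMod 2) + 1 = 0 := by decide
      rw [e, zero_add] at a
      exact a.symm
    have hbr := hbraid ⟨v, hv⟩ ⟨w, hw⟩ hvw
    have a := hF (r ⟨v, hv⟩ * r ⟨w, hw⟩) (r ⟨v, hv⟩)
    rw [hbr, hF, hρ.mul, hcF, hcF, hcF] at a
    dsimp only at a
    have e1 : ρ (r ⟨v, hv⟩) w = w + v := by
      rw [hact]
      show w + B w v • v = w + v
      rw [hBsymm, hB, one_smul]
    have e2 : ρ (r ⟨w, hw⟩) v = v + w := by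
      rw [hact]
      show v + B v w • w = v + w
      rw [hB, one_smul]
    have e3 : ρ (r ⟨v, hv⟩) v = v := by
      rw [hact]
      show v + B v v • v = v
      rw [hBself, zero_smul, add_zero]
    rw [hρ.smul, hρ.smul, hρ.smul, e1, e2, hρ.add, e3, e1] at a
    have e4 : v + (w + v) = w := by
      rw [add_comm w v, ← add_assoc, h2, zero_add]
    rw [e4] at a
    have e5 : c v • v + c w • (w + v) + c v • w = (c v + c w) • (v + w) := by
      rw [smul_add, add_smul, smul_add, smul_add]; abel
    exact smul_eq_smul_zmod2 (hne ⟨v + w, hvw⟩) (a.trans e5)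
  -- Step 6
  obtain ⟨x, hx⟩ := hL c hcadd
  refine ⟨x, ?_⟩
  have hrx : ∀ u : {u : V // Qf u = 1}, F (r u) = ρ (r u) x + x := by
    intro u
    rw [hcF, hx u.1 u.2, hact, add_comm x, add_assoc, h2, add_zero]
  apply hind
  · rw [hF1, hρ.one, h2]
  · intro u g hg
    rw [hF, hrx, hg, hρ.add, hρ.mul]
    have := h2 (ρ (r u) x)
    calc ρ (r u) x + x + (ρ (r u) (ρ g x) + ρ (r u) x)
        = ρ (r u) (ρ g x) + x + (ρ (r u) x + ρ (r u) x) := by abel
      _ = ρ (r u) (ρ g x) + x := by rw [this, add_zero]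

/-- No non-zero vector is fixed by all products of two transvections. -/
theorem fixed_eq_zero {ρ : G → V → V} (hρ : IsAct ρ) (Qf : V → ZMod 2) (B : V → V → ZMod 2)
    (hQ0 : Qf 0 = 0) (hQB : ∀ u w, Qf (u + w) = Qf u + Qf w + B u w)
    (hBr : ∀ y u w, B y (u + w) = B y u + B y w)
    (r : {u : V // Qf u = 1} → G)
    (hact : ∀ (u : {u : V // Qf u = 1}) (y : V), ρ (r u) y = y + B y u.1 • u.1)
    (N : Subgroup G) (hpair : ∀ u w, r u * r w ∈ N)
    (hline : ∃ u w, Qf u = 1 ∧ Qf w = 1 ∧ Qf (u + w) = 1)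
    (hnd : ∀ v, (∀ y, B v y = 0) → v = 0) :
    ∀ v, (∀ g, g ∈ N → ρ g v = v) → v = 0 := by
  intro v hv
  have h2 : ∀ v : V, v + v = 0 := add_self_zmod2
  have hBsymm := polar_symm_aux Qf B hQB
  have hBself := polar_self_aux Qf B hQ0 hQB
  have hne := ne_zero_aux Qf hQ0
  have keyA : ∀ u₁ u₂ : {u : V // Qf u = 1}, u₁.1 ≠ u₂.1 → B v u₂.1 = 0 ∧ B v u₁.1 = 0 := by
    intro u₁ u₂ hne12
    have a := hv _ (hpair u₁ u₂)
    rw [hρ.mul, hact u₂, hact u₁] at a
    rcases zmod2_cases (B v u₂.1) with h | h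
    · rw [h, zero_smul, add_zero] at a
      refine ⟨h, ?_⟩
      rcases zmod2_cases (B v u₁.1) with h' | h'
      · exact h'
      · rw [h', one_smul] at a
        exact absurd (left_eq_add.mp a.symm) (hne u₁)
    · exfalso
      rw [h, one_smul] at a
      have a' : u₂.1 + B (v + u₂.1) u₁.1 • u₁.1 = 0 := by
        rw [add_assoc] at a
        exact left_eq_add.mp a.symm
      rcases zmod2_cases (B (v + u₂.1) u₁.1) with h' | h'
      · rw [h', zero_smul, add_zero] at a'
        exact hne u₂ a'
      · rw [h', one_smul] at a'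
        apply hne12
        calc u₁.1 = (u₂.1 + u₁.1) + u₂.1 := by
              rw [add_comm u₂.1 u₁.1, add_assoc, h2, add_zero]
          _ = u₂.1 := by rw [a', zero_add]
  obtain ⟨u, w, hu, hw, huw⟩ := hline
  have huw_ne : u ≠ w := by
    intro h
    rw [h, h2, hQ0] at huw
    exact zero_ne_one huw
  have hperp : ∀ n, Qf n = 1 → B v n = 0 := by
    intro n hn
    by_cases h : n = u
    · exact (keyA ⟨n, hn⟩ ⟨w, hw⟩ (fun hc => huw_ne (h.symm.trans hc))).2
    · exact (keyA ⟨n, hn⟩ ⟨u, hu⟩ h).2
  apply hnd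
  intro y
  rcases zmod2_cases (Qf y) with hy | hy
  · rcases zmod2_cases (B y u) with h | h
    · have e : Qf (y + u) = 1 := by rw [hQB, hy, hu, h]; decide
      have := hperp _ e
      rw [hBr, hperp u hu, add_zero] at this
      exact this
    · rcases zmod2_cases (B y w) with h' | h'
      · have e : Qf (y + w) = 1 := by rw [hQB, hy, hw, h']; decide
        have := hperp _ e
        rw [hBr, hperp w hw, add_zero] at this
        exact this
      · have e : Qf (y + (u + w)) = 1 := by rw [hQB, hy, huw, hBr, h, h']; decide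
        have := hperp _ e
        rw [hBr, hperp _ huw, add_zero] at this
        exact this
  · exact hperp y hy

end refl

end Cfsg.Agent.Lib.Helper98.H1
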