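import Mathlib
import Cfsg.Agent.Lib.Helper98.H1.Coh
import Cfsg.Agent.Lib.Helper44.Dickson

set_option autoImplicit false

/-!
Vanishing of the first cohomology of `Ω(Q)` on the natural module over the field with two
elements, from: generation of the isometry group by orthogonal transvections, products of two
transvections being commutators, and the linearity of locally additive functions on the
non-singular vectors.
-/

namespace Cfsg.Agent.Lib.Helper98.H1

open Matrix Cfsg.Agent.Lib.Helper14 Cfsg.Agent.Lib.Helper44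

section orth

variable {ι : Type} [Fintype ι] [DecidableEq ι]

/-- The natural action of the isometry group. -/
def isoAct (Q : (ι → ZMod 2) → ZMod 2) (g : ↥(Cfsg.isometryGroup (ZMod 2) Q))
    (v : ι → ZMod 2) : ι → ZMod 2 :=
  ((g : Matrix.GeneralLinearGroup ι (ZMod 2)) : Matrix ι ι (ZMod 2)) *ᵥ v

theorem isoAct_isAct (Q : (ι → ZMod 2) → ZMod 2) : IsAct (isoAct Q) where
  one := fun v => by simp [isoAct]
  mul := fun g h v => by
    simp only [isoAct, Subgroup.coe_mul, Units.val_mul, Matrix.mulVec_mulVec]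
  add := fun g v w => by simp only [isoAct, Matrix.mulVec_add]

theorem reflElt_congr (Q : QuadraticForm (ZMod 2) (ι → ZMod 2))
    (hQ : (QuadraticMap.polarBilin Q).Nondegenerate) {v w : ι → ZMod 2} (h : v = w)
    (hv : Q v ≠ 0) (hw : Q w ≠ 0) : reflElt Q hQ v hv = reflElt Q hQ w hw := by
  subst h; rfl

theorem ne_zero_of_eq_one {a : ZMod 2} (h : a = 1) : a ≠ 0 := by
  rw [h]; exact one_ne_zero

theorem isoAct_reflElt (Q : QuadraticForm (ZMod 2) (ι → ZMod 2))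
    (hQ : (QuadraticMap.polarBilin Q).Nondegenerate) (u : ι → ZMod 2) (hu : Q u = 1)
    (y : ι → ZMod 2) :
    isoAct (⇑Q) (reflElt Q hQ u (ne_zero_of_eq_one hu)) y
      = y + QuadraticMap.polar (⇑Q) y u • u := by
  unfold isoAct
  rw [reflElt_coe, reflectionMatrix_mulVec, hu, inv_one, one_mul, QuadraticMap.polar_comm,
    sub_eq_add_neg]
  congr 1
  exact neg_eq_of_add_eq_zero_left (add_self_zmod2 _)

theorem h1_vanish_aux (Q : QuadraticForm (ZMod 2) (ι → ZMod 2))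
    (hQ : (QuadraticMap.polarBilin Q).Nondegenerate)
    (hgen : ∀ g : ↥(Cfsg.isometryGroup (ZMod 2) ⇑Q),
      ∃ (l : List (ι → ZMod 2)) (hl : ∀ u ∈ l, Q u ≠ 0), g = prodElt Q hQ l hl)
    (hpair : ∀ (u v : ι → ZMod 2) (hu : Q u ≠ 0) (hv : Q v ≠ 0),
      reflElt Q hQ u hu * reflElt Q hQ v hv ∈ commutator ↥(Cfsg.isometryGroup (ZMod 2) ⇑Q))
    (hline : ∃ u w, Q u = 1 ∧ Q w = 1 ∧ Q (u + w) = 1)
    (hL : ∀ c : (ι → ZMod 2) → ZMod 2,
      (∀ v w, Q v = 1 → Q w = 1 → Q (v + w) = 1 → c (v + w) = c v + c w) →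
      ∃ x, ∀ u, Q u = 1 → c u = QuadraticMap.polar (⇑Q) x u)
    (f : ↥(Cfsg.Omega (ZMod 2) ⇑Q) → (ι → ZMod 2))
    (hf : ∀ g h : ↥(Cfsg.Omega (ZMod 2) ⇑Q), f (g * h) = f g +
      Matrix.mulVec (((g : ↥(Cfsg.isometryGroup (ZMod 2) ⇑Q)) :
        Matrix.GeneralLinearGroup ι (ZMod 2)) : Matrix ι ι (ZMod 2)) (f h)) :
    ∃ v : ι → ZMod 2, ∀ g : ↥(Cfsg.Omega (ZMod 2) ⇑Q), f g =
      Matrix.mulVec (((g : ↥(Cfsg.isometryGroup (ZMod 2) ⇑Q)) :
        Matrix.GeneralLinearGroup ι (ZMod 2)) : Matrix ι ι (ZMod 2)) v - v := by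
  classical
  have hρ := isoAct_isAct (⇑Q)
  have h2 : ∀ v : ι → ZMod 2, v + v = 0 := add_self_zmod2
  set r : {u : ι → ZMod 2 // Q u = 1} → ↥(Cfsg.isometryGroup (ZMod 2) ⇑Q) :=
    fun u => reflElt Q hQ u.1 (ne_zero_of_eq_one u.2) with hr
  have hact : ∀ (u : {u : ι → ZMod 2 // Q u = 1}) (y : ι → ZMod 2),
      isoAct (⇑Q) (r u) y = y + QuadraticMap.polar (⇑Q) y u.1 • u.1 :=
    fun u y => isoAct_reflElt Q hQ u.1 u.2 y
  have hQ0 : Q 0 = 0 := map_zero Q
  have hQB : ∀ u w : ι → ZMod 2, Q (u + w) = Q u + Q w + QuadraticMap.polar (⇑Q) u w := by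
    intro u w
    unfold QuadraticMap.polar
    ring
  have hBr : ∀ y u w : ι → ZMod 2, QuadraticMap.polar (⇑Q) y (u + w)
      = QuadraticMap.polar (⇑Q) y u + QuadraticMap.polar (⇑Q) y w :=
    fun y u w => QuadraticMap.polar_add_right Q y u w
  have hrr : ∀ u, r u * r u = 1 := fun u => reflElt_mul_self Q hQ u.1 _
  have hrinv : ∀ u, (r u)⁻¹ = r u := fun u => inv_eq_of_mul_eq_one_right (hrr u)
  have hconj : ∀ (u w : {u : ι → ZMod 2 // Q u = 1}) (z : ι → ZMod 2) (hz : Q z ≠ 0),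
      isoAct (⇑Q) (r u) w.1 = z → r u * r w * r u = reflElt Q hQ z hz := by
    intro u w z hz hzu
    have a := conj_reflElt Q hQ (r u) w.1 (ne_zero_of_eq_one w.2)
    rw [hrinv] at a
    rw [hr] at a ⊢
    rw [a]
    exact reflElt_congr Q hQ hzu _ _
  have hcomm : ∀ u w : {u : ι → ZMod 2 // Q u = 1}, QuadraticMap.polar (⇑Q) u.1 w.1 = 0 →
      r u * r w = r w * r u := by
    intro u w huw
    have a := hconj u w w.1 (ne_zero_of_eq_one w.2)
      (by rw [hact, QuadraticMap.polar_comm, huw, zero_smul, add_zero])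
    have b : r u * r w * r u * r u = r w * r u := by rw [a]
    rwa [mul_assoc, hrr, mul_one] at b
  have hbraid : ∀ (u w : {u : ι → ZMod 2 // Q u = 1}) (h : Q (u.1 + w.1) = 1),
      r u * r w * r u = r ⟨u.1 + w.1, h⟩ := by
    intro u w h
    apply hconj u w
    rw [hact]
    have hB : QuadraticMap.polar (⇑Q) u.1 w.1 = 1 := by
      have a := hQB u.1 w.1
      rw [h, u.2, w.2] at a
      have e : (1 : ZMod 2) + 1 = 0 := by decide
      rw [e, zero_add] at a
      exact a.symm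
    rw [QuadraticMap.polar_comm, hB, one_smul, add_comm]
  have hind : ∀ P : ↥(Cfsg.isometryGroup (ZMod 2) ⇑Q) → Prop, P 1 →
      (∀ u g, P g → P (r u * g)) → ∀ g, P g := by
    intro P h1 hstep g
    obtain ⟨l, hl, rfl⟩ := hgen g
    induction l with
    | nil => rw [prodElt_nil]; exact h1
    | cons a l ih =>
      rw [prodElt_cons]
      have ha : Q a = 1 := by
        rcases zmod2_cases (Q a) with h | h
        · exact absurd h (hl a (List.mem_cons_self ..))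
        · exact h
      exact hstep ⟨a, ha⟩ _ (ih _)
  have hS : ∀ u y : ι → ZMod 2, Q u = 1 →
      (∀ w, QuadraticMap.polar (⇑Q) u w = 0 → QuadraticMap.polar (⇑Q) y w = 0) →
      y = 0 ∨ y = u := by
    intro u y _ h
    obtain ⟨a, ha⟩ := exists_smul_of_orth Q hQ h
    rcases zmod2_cases a with rfl | rfl
    · left; rw [← ha, zero_smul]
    · right; rw [← ha, one_smul]
  have hO := principal_of_refl hρ (⇑Q) (QuadraticMap.polar (⇑Q)) hQ0 hQB hBr r hact hrr hcomm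
    hbraid hind hS hL
  -- reduction to the commutator subgroup
  obtain ⟨a, b, ha, hb, hab⟩ := hline
  set s := r ⟨a, ha⟩ with hs
  have hpair' : ∀ u w, r u * r w ∈ commutator ↥(Cfsg.isometryGroup (ZMod 2) ⇑Q) :=
    fun u w => hpair u.1 w.1 _ _
  have hcov : ∀ g, g ∈ commutator ↥(Cfsg.isometryGroup (ZMod 2) ⇑Q) ∨
      g * s ∈ commutator ↥(Cfsg.isometryGroup (ZMod 2) ⇑Q) := by
    apply hind
    · left; exact Subgroup.one_mem _
    · intro u g hg
      have hN : (commutator ↥(Cfsg.isometryGroup (ZMod 2) ⇑Q)).Normal := inferInstance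
      rcases hg with hg | hg
      · right
        have e : r u * g * s = (r u * g * (r u)⁻¹) * (r u * s) := by group
        rw [e]
        exact Subgroup.mul_mem _ (hN.conj_mem g hg (r u)) (hpair' u _)
      · left
        have e : r u * g = (r u * (g * s) * (r u)⁻¹) * (r u * s) := by
          calc r u * g = r u * g * (s * s) := by rw [hs, hrr, mul_one]
            _ = (r u * (g * s) * (r u)⁻¹) * (r u * s) := by group
        rw [e]
        exact Subgroup.mul_mem _ (hN.conj_mem _ hg (r u)) (hpair' u _)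
  have hfix := fixed_eq_zero hρ (⇑Q) (QuadraticMap.polar (⇑Q)) hQ0 hQB hBr r hact
    (commutator ↥(Cfsg.isometryGroup (ZMod 2) ⇑Q)) hpair' ⟨a, b, ha, hb, hab⟩
    (fun v hv => hQ.1 v hv)
  set f' : ↥(Cfsg.isometryGroup (ZMod 2) ⇑Q) → (ι → ZMod 2) :=
    fun g => if h : g ∈ commutator ↥(Cfsg.isometryGroup (ZMod 2) ⇑Q) then f ⟨g, h⟩ else 0
    with hf'
  have hf'c : ∀ g h, g ∈ commutator ↥(Cfsg.isometryGroup (ZMod 2) ⇑Q) →
      h ∈ commutator ↥(Cfsg.isometryGroup (ZMod 2) ⇑Q) →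
      f' (g * h) = f' g + isoAct (⇑Q) g (f' h) := by
    intro g h hg hh
    have hgh := Subgroup.mul_mem _ hg hh
    simp only [hf', dif_pos hg, dif_pos hh, dif_pos hgh]
    exact hf ⟨g, hg⟩ ⟨h, hh⟩
  obtain ⟨x, hx⟩ := principal_of_index_two h2 hρ
    (commutator ↥(Cfsg.isometryGroup (ZMod 2) ⇑Q)) s (hrr _) hcov hfix hO f' hf'c
  refine ⟨x, fun g => ?_⟩
  have a := hx g.1 g.2
  simp only [hf', dif_pos g.2] at a
  rw [a]
  have e : -x = x := neg_eq_of_add_eq_zero_left (h2 x)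
  rw [sub_eq_add_neg, e]
  rfl

/-- Version with the form given as a function. -/
theorem h1_vanish (Qf : (ι → ZMod 2) → ZMod 2) (Q : QuadraticForm (ZMod 2) (ι → ZMod 2))
    (hQf : ⇑Q = Qf)
    (hQ : (QuadraticMap.polarBilin Q).Nondegenerate)
    (hgen : ∀ g : ↥(Cfsg.isometryGroup (ZMod 2) ⇑Q),
      ∃ (l : List (ι → ZMod 2)) (hl : ∀ u ∈ l, Q u ≠ 0), g = prodElt Q hQ l hl)
    (hpair : ∀ (u v : ι → ZMod 2) (hu : Q u ≠ 0) (hv : Q v ≠ 0),
      reflElt Q hQ u hu * reflElt Q hQ v hv ∈ commutator ↥(Cfsg.isometryGroup (ZMod 2) ⇑Q))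
    (hline : ∃ u w, Qf u = 1 ∧ Qf w = 1 ∧ Qf (u + w) = 1)
    (hL : ∀ c : (ι → ZMod 2) → ZMod 2,
      (∀ v w, Qf v = 1 → Qf w = 1 → Qf (v + w) = 1 → c (v + w) = c v + c w) →
      ∃ x, ∀ u, Qf u = 1 → c u = QuadraticMap.polar Qf x u)
    (f : ↥(Cfsg.Omega (ZMod 2) Qf) → (ι → ZMod 2))
    (hf : ∀ g h : ↥(Cfsg.Omega (ZMod 2) Qf), f (g * h) = f g +
      Matrix.mulVec (((g : ↥(Cfsg.isometryGroup (ZMod 2) Qf)) :
        Matrix.GeneralLinearGroup ι (ZMod 2)) : Matrix ι ι (ZMod 2)) (f h)) :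
    ∃ v : ι → ZMod 2, ∀ g : ↥(Cfsg.Omega (ZMod 2) Qf), f g =
      Matrix.mulVec (((g : ↥(Cfsg.isometryGroup (ZMod 2) Qf)) :
        Matrix.GeneralLinearGroup ι (ZMod 2)) : Matrix ι ι (ZMod 2)) v - v := by
  subst hQf
  exact h1_vanish_aux Q hQ hgen hpair hline hL f hf

end orth

end Cfsg.Agent.Lib.Helper98.H1
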