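import Mathlib
import Cfsg.Agent.Lib.Helper98.H1.Orth

set_option autoImplicit false

/-!
Generation of the isometry group by orthogonal transvections in characteristic two when no
totally singular subspace has half the dimension (adapted from `Cfsg.Agent.Lib.Helper44.Wall`,
where dimension four over the field with two elements is excluded), and products of two
transvections as commutators when the non-singular vectors are connected.
-/

namespace Cfsg.Agent.Lib.Helper98.H1

open Module Matrix Cfsg.Agent.Lib.Helper14 Cfsg.Agent.Lib.Helper44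

open scoped commutatorElement

section cd

variable {F : Type*} [Field F] {V : Type*} [AddCommGroup V] [Module F V]
variable (Q : QuadraticForm F V)

/-- Existence of a good pair in the totally singular case, when no totally singular subspace
has half the dimension. -/
theorem exists_good_pair_nohalf [FiniteDimensional F V]
    (hQ : (QuadraticMap.polarBilin Q).Nondegenerate)
    (hW : ∀ W : Submodule F V, (∀ y ∈ W, Q y = 0) → 2 * finrank F W ≠ finrank F V)
    {g : V →ₗ[F] V}
    (hg : ∀ x, Q (g x) = Q x) (hts : ∀ y ∈ moved g, Q y = 0) (hne : moved g ≠ ⊥) :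
    ∃ v u₀, Q v ≠ 0 ∧ QuadraticMap.polar ⇑Q u₀ v ≠ 0 ∧ QuadraticMap.polar ⇑Q u₀ (g v) ≠ 0 ∧
      ∀ c : F, u₀ - g u₀ ≠ c • (v - g v) := by
  by_cases hA : ∃ z ∈ fixed g, Q z ≠ 0
  · obtain ⟨z, hz, hQz⟩ := hA
    have hgz := (mem_fixed_iff g z).mp hz
    obtain ⟨u₀, -, hu1, hu2⟩ := exists_mem_notMem_notMem ⊤ (fixed g)
      (LinearMap.ker (QuadraticMap.polarBilin Q z))
      (fun hle => fixed_ne_top hne (top_le_iff.mp hle))
      (polar_ker_ne_top Q hQ (ne_zero_of_quad_ne_zero Q hQz))
    rw [LinearMap.mem_ker, QuadraticMap.polarBilin_apply_apply, QuadraticMap.polar_comm] at hu2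
    refine ⟨z, u₀, hQz, hu2, by rw [hgz]; exact hu2, ?_⟩
    intro c hc
    rw [hgz, sub_self, smul_zero] at hc
    apply hu1
    rw [mem_fixed_iff]
    exact (sub_eq_zero.mp hc).symm
  · exfalso
    push Not at hA
    have hfm : fixed g ≤ moved g := by
      rw [moved_eq_orth_fixed Q hQ hg]
      intro x hx
      rw [mem_orth_iff]
      intro y hy
      exact polar_eq_zero_of_singular Q (fixed g) hA hy hx
    have hmf : moved g ≤ fixed g := by
      rw [fixed_eq_orth_moved Q hQ hg]
      intro x hx
      rw [mem_orth_iff]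
      intro y hy
      exact polar_eq_zero_of_singular Q (moved g) hts hy hx
    have heq : fixed g = moved g := le_antisymm hfm hmf
    have hdim := finrank_moved_add_fixed g
    rw [heq] at hdim
    exact hW (moved g) hts (by omega)

/-- Every isometry is a product of orthogonal transvections, in characteristic two, when no
totally singular subspace has half the dimension. -/
theorem cartan_dieudonne_nohalf (h2 : (2 : F) = 0) [FiniteDimensional F V]
    (hQ : (QuadraticMap.polarBilin Q).Nondegenerate)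
    (hW : ∀ W : Submodule F V, (∀ y ∈ W, Q y = 0) → 2 * finrank F W ≠ finrank F V) (n : ℕ) :
    ∀ g : V →ₗ[F] V, (∀ x, Q (g x) = Q x) → finrank F (moved g) = n →
      ∃ l : List V, (∀ u ∈ l, Q u ≠ 0) ∧ g = (l.map (reflLin Q)).prod := by
  induction n using Nat.strong_induction_on with
  | _ n ih =>
    intro g hg hn
    by_cases hbot : moved g = ⊥
    · refine ⟨[], by simp, ?_⟩
      rw [(moved_eq_bot_iff g).mp hbot]
      simp
    by_cases hns : ∃ v ∈ moved g, Q v ≠ 0
    · obtain ⟨v, hvm, hv⟩ := hns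
      have hlt := finrank_moved_mul_refl_lt Q hg hv hvm
      rw [hn] at hlt
      obtain ⟨l, hl, hgl⟩ := ih _ hlt (g * reflLin Q v) (mul_refl_isom Q hg hv) rfl
      refine ⟨l ++ [v], ?_, ?_⟩
      · intro u hu
        rcases List.mem_append.mp hu with hu | hu
        · exact hl u hu
        · rw [List.mem_singleton] at hu
          rw [hu]; exact hv
      · rw [List.map_append, List.prod_append, ← hgl, List.map_cons, List.map_nil,
          List.prod_cons, List.prod_nil, mul_one, mul_refl_mul_refl Q g hv]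
    · push Not at hns
      obtain ⟨v, u₀, hv, h1, h1', h3⟩ := exists_good_pair_nohalf Q hQ hW hg hns hbot
      obtain ⟨w, x, hw, hx, hlt⟩ := exists_two_refl_drop Q h2 hQ hg hns hv h1 h1' h3
      rw [hn] at hlt
      have hiso : ∀ y, Q ((g * reflLin Q v * reflLin Q w * reflLin Q x) y) = Q y :=
        mul_refl_isom Q (mul_refl_isom Q (mul_refl_isom Q hg hv) hw) hx
      obtain ⟨l, hl, hgl⟩ := ih _ hlt _ hiso rfl
      refine ⟨l ++ [x, w, v], ?_, ?_⟩
      · intro u hu
        rcases List.mem_append.mp hu with hu | hu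
        · exact hl u hu
        · simp only [List.mem_cons, List.not_mem_nil, or_false] at hu
          rcases hu with rfl | rfl | rfl
          · exact hx
          · exact hw
          · exact hv
      · rw [List.map_append, List.prod_append, ← hgl]
        simp only [List.map_cons, List.map_nil, List.prod_cons, List.prod_nil, mul_one]
        rw [← mul_assoc, ← mul_assoc, mul_refl_mul_refl Q _ hx, mul_refl_mul_refl Q _ hw,
          mul_refl_mul_refl Q _ hv]

end cd

section mat

variable {ι : Type} [Fintype ι] [DecidableEq ι]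

/-- Matrix version. -/
theorem exists_eq_prodElt_nohalf (Q : QuadraticForm (ZMod 2) (ι → ZMod 2))
    (hQ : (QuadraticMap.polarBilin Q).Nondegenerate)
    (hW : ∀ W : Submodule (ZMod 2) (ι → ZMod 2), (∀ y ∈ W, Q y = 0) →
      2 * finrank (ZMod 2) W ≠ finrank (ZMod 2) (ι → ZMod 2))
    (g : ↥(Cfsg.isometryGroup (ZMod 2) ⇑Q)) :
    ∃ (l : List (ι → ZMod 2)) (hl : ∀ u ∈ l, Q u ≠ 0), g = prodElt Q hQ l hl := by
  have h2 : (2 : ZMod 2) = 0 := by decide
  obtain ⟨l, hl, hσ⟩ := cartan_dieudonne_nohalf Q h2 hQ hW _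
    (((g : Matrix.GeneralLinearGroup ι (ZMod 2)) : Matrix ι ι (ZMod 2)).mulVecLin)
    (fun x => by rw [Matrix.mulVecLin_apply]; exact isom_preserves g x) rfl
  refine ⟨l, hl, eq_prodElt Q hQ l hl g ?_⟩
  rw [ext_iff_mulVec]
  intro x
  rw [← Matrix.mulVecLin_apply, hσ, ← prod_reflectionMatrix_mulVecLin, Matrix.mulVecLin_apply]

/-- The product of the transvections along two non-singular vectors with non-singular sum is
a commutator. -/
theorem pair_line (Q : QuadraticForm (ZMod 2) (ι → ZMod 2))
    (hQ : (QuadraticMap.polarBilin Q).Nondegenerate) (u w : ι → ZMod 2)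
    (hu : Q u = 1) (hw : Q w = 1) (huw : Q (u + w) = 1) :
    reflElt Q hQ u (ne_zero_of_eq_one hu) * reflElt Q hQ w (ne_zero_of_eq_one hw)
      ∈ commutator ↥(Cfsg.isometryGroup (ZMod 2) ⇑Q) := by
  have h2 : (2 : ZMod 2) = 0 := by decide
  set h := reflElt Q hQ (u + w) (ne_zero_of_eq_one huw) with hh
  have a := conj_reflElt Q hQ h u (ne_zero_of_eq_one hu)
  have hB : QuadraticMap.polar (⇑Q) u w = 1 := by
    have a : Q (u + w) = Q u + Q w + QuadraticMap.polar (⇑Q) u w := by
      unfold QuadraticMap.polar; ring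
    rw [huw, hu, hw] at a
    have e : (1 : ZMod 2) + 1 = 0 := by decide
    rw [e, zero_add] at a
    exact a.symm
  have e : ((h : Matrix.GeneralLinearGroup ι (ZMod 2)) : Matrix ι ι (ZMod 2)) *ᵥ u = w := by
    have := isoAct_reflElt Q hQ (u + w) huw u
    unfold isoAct at this
    rw [this, QuadraticMap.polar_add_right, polar_self_char2 Q h2, zero_add, hB, one_smul,
      ← add_assoc, add_self_zmod2, zero_add]
  have a' : h * reflElt Q hQ u (ne_zero_of_eq_one hu) * h⁻¹
      = reflElt Q hQ w (ne_zero_of_eq_one hw) := by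
    rw [a]
    exact reflElt_congr Q hQ e _ _
  have hinv : (reflElt Q hQ u (ne_zero_of_eq_one hu))⁻¹ = reflElt Q hQ u (ne_zero_of_eq_one hu) :=
    inv_eq_of_mul_eq_one_right (reflElt_mul_self Q hQ u _)
  have e2 : reflElt Q hQ u (ne_zero_of_eq_one hu) * reflElt Q hQ w (ne_zero_of_eq_one hw)
      = ⁅reflElt Q hQ u (ne_zero_of_eq_one hu), h⁆ := by
    rw [commutatorElement_def, hinv, ← a']
    group
  rw [e2, commutator_def]
  exact Subgroup.commutator_mem_commutator (Subgroup.mem_top _) (Subgroup.mem_top _)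

theorem hpair_of_conn (Q : QuadraticForm (ZMod 2) (ι → ZMod 2))
    (hQ : (QuadraticMap.polarBilin Q).Nondegenerate)
    (hconn : ∀ u v, Q u = 1 → Q v = 1 → ∃ w, Q w = 1 ∧ Q (u + w) = 1 ∧ Q (w + v) = 1)
    (u v : ι → ZMod 2) (hu : Q u ≠ 0) (hv : Q v ≠ 0) :
    reflElt Q hQ u hu * reflElt Q hQ v hv ∈ commutator ↥(Cfsg.isometryGroup (ZMod 2) ⇑Q) := by
  have hu1 : Q u = 1 := (zmod2_cases (Q u)).resolve_left hu
  have hv1 : Q v = 1 := (zmod2_cases (Q v)).resolve_left hv
  obtain ⟨w, hw, huw, hwv⟩ := hconn u v hu1 hv1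
  have a := pair_line Q hQ u w hu1 hw huw
  have b := pair_line Q hQ w v hw hv1 hwv
  have e : reflElt Q hQ u hu * reflElt Q hQ v hv
      = (reflElt Q hQ u (ne_zero_of_eq_one hu1) * reflElt Q hQ w (ne_zero_of_eq_one hw)) *
        (reflElt Q hQ w (ne_zero_of_eq_one hw) * reflElt Q hQ v (ne_zero_of_eq_one hv1)) := by
    rw [mul_assoc, ← mul_assoc (reflElt Q hQ w _), reflElt_mul_self, one_mul]
  rw [e]
  exact Subgroup.mul_mem _ a b

end mat

end Cfsg.Agent.Lib.Helper98.H1
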