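import Mathlib
import Cfsg.Agent.Lib.Helper98.H1.Coh

set_option autoImplicit false

/-!
Locally additive functions on the non-singular vectors are linear, from a certificate:
a family of non-singular vectors with a dual family, whose closure under sums along
non-singular lines is the whole set of non-singular vectors.
-/

namespace Cfsg.Agent.Lib.Helper98.H1

theorem forall_zmod2 {P : ZMod 2 → Prop} (h0 : P 0) (h1 : P 1) (a : ZMod 2) : P a := by
  rcases zmod2_cases a with rfl | rfl <;> assumption

theorem L_of_cert {ι : Type} [Fintype ι] [DecidableEq ι] {n : ℕ}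
    (Qf : (ι → ZMod 2) → ZMod 2) (Q : QuadraticForm (ZMod 2) (ι → ZMod 2)) (hQf : ⇑Q = Qf)
    (b d : Fin n → (ι → ZMod 2))
    (hdual : ∀ i j, QuadraticMap.polar Qf (d i) (b j) = if i = j then 1 else 0)
    (hcl : ∀ c : (ι → ZMod 2) → ZMod 2,
      (∀ v w, Qf v = 1 → Qf w = 1 → Qf (v + w) = 1 → c (v + w) = c v + c w) →
      (∀ i, c (b i) = 0) → ∀ u, Qf u = 1 → c u = 0) :
    ∀ c : (ι → ZMod 2) → ZMod 2,
      (∀ v w, Qf v = 1 → Qf w = 1 → Qf (v + w) = 1 → c (v + w) = c v + c w) →
      ∃ x, ∀ u, Qf u = 1 → c u = QuadraticMap.polar Qf x u := by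
  subst hQf
  intro c hc
  set x : ι → ZMod 2 := ∑ i, c (b i) • d i with hx
  have hxb : ∀ j, QuadraticMap.polar (⇑Q) x (b j) = c (b j) := by
    intro j
    have e : QuadraticMap.polar (⇑Q) x (b j)
        = ∑ i, c (b i) * QuadraticMap.polar (⇑Q) (d i) (b j) := by
      have := map_sum ((QuadraticMap.polarBilin Q).flip (b j)) (fun i => c (b i) • d i)
        Finset.univ
      simp only [LinearMap.flip_apply, QuadraticMap.polarBilin_apply_apply, map_smul,
        smul_eq_mul] at this
      rw [hx]; exact this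
    rw [e]
    simp only [hdual, mul_ite, mul_one, mul_zero, Finset.sum_ite_eq', Finset.mem_univ, if_true]
  refine ⟨x, ?_⟩
  have key := hcl (fun u => c u - QuadraticMap.polar (⇑Q) x u) ?_ ?_
  · intro u hu; exact sub_eq_zero.mp (key u hu)
  · intro v w hv hw hvw
    show c (v + w) - QuadraticMap.polar (⇑Q) x (v + w)
      = (c v - QuadraticMap.polar (⇑Q) x v) + (c w - QuadraticMap.polar (⇑Q) x w)
    rw [hc v w hv hw hvw, QuadraticMap.polar_add_right]; ring
  · intro i
    show c (b i) - QuadraticMap.polar (⇑Q) x (b i) = 0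
    rw [hxb]; exact sub_self _

end Cfsg.Agent.Lib.Helper98.H1
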