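import Mathlib
import Cfsg.Prelude.Def_Classical
import Cfsg.Agent.Lib.Helper98.H1.Cert

set_option autoImplicit false

/-!
Generated certificate: closure of a dual pair of families of non-singular vectors under sums
along non-singular lines, for the form `Cfsg.quadFormMinus 1 (ZMod 2) 1 1`.
-/

namespace Cfsg.Agent.Lib.Helper98.H1.Cert4

open Cfsg.Agent.Lib.Helper98.H1

/-- Vector with the given coordinates. -/
def mk4 (a0 a1 a2 a3 : ZMod 2) : (Fin 1 ⊕ Fin 1) ⊕ Fin 2 → ZMod 2 :=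
  Sum.elim (Sum.elim ![a0] ![a1]) ![a2, a3]

theorem eq_mk (u : (Fin 1 ⊕ Fin 1) ⊕ Fin 2 → ZMod 2) :
    u = mk4 (u (.inl (.inl 0))) (u (.inl (.inr 0))) (u (.inr 0)) (u (.inr 1)) := by
  funext i
  rcases i with (i | i) | i <;> fin_cases i <;> rfl

theorem q_mk (a0 a1 a2 a3 : ZMod 2) :
    Cfsg.quadFormMinus 1 (ZMod 2) 1 1 (mk4 a0 a1 a2 a3) = a0 * a1 + (a2 * a2 + a2 * a3 + a3 * a3) := by
  simp [Cfsg.quadFormMinus, mk4, pow_two]

theorem mk_add (a0 a1 a2 a3 b0 b1 b2 b3 : ZMod 2) :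
    mk4 a0 a1 a2 a3 + mk4 b0 b1 b2 b3 = mk4 (a0 + b0) (a1 + b1) (a2 + b2) (a3 + b3) := by
  funext i
  rcases i with (i | i) | i <;> fin_cases i <;> rfl

theorem step (c : ((Fin 1 ⊕ Fin 1) ⊕ Fin 2 → ZMod 2) → ZMod 2)
    (hadd : ∀ v w, Cfsg.quadFormMinus 1 (ZMod 2) 1 1 v = 1 → Cfsg.quadFormMinus 1 (ZMod 2) 1 1 w = 1 → Cfsg.quadFormMinus 1 (ZMod 2) 1 1 (v + w) = 1 → c (v + w) = c v + c w)
    (a0 a1 a2 a3 b0 b1 b2 b3 : ZMod 2)
    (hu : c (mk4 a0 a1 a2 a3) = 0) (hw : c (mk4 b0 b1 b2 b3) = 0)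
    (hQu : a0 * a1 + (a2 * a2 + a2 * a3 + a3 * a3) = 1) (hQw : b0 * b1 + (b2 * b2 + b2 * b3 + b3 * b3) = 1)
    (hQs : (a0 + b0) * (a1 + b1) + ((a2 + b2) * (a2 + b2) + (a2 + b2) * (a3 + b3) + (a3 + b3) * (a3 + b3)) = 1) :
    c (mk4 (a0 + b0) (a1 + b1) (a2 + b2) (a3 + b3)) = 0 := by
  rw [← mk_add, hadd _ _ (by rw [q_mk]; exact hQu) (by rw [q_mk]; exact hQw)
    (by rw [mk_add, q_mk]; exact hQs), hu, hw, add_zero]

/-- The base family. -/
def bb : Fin 4 → ((Fin 1 ⊕ Fin 1) ⊕ Fin 2 → ZMod 2) :=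
  ![mk4 1 0 0 1, mk4 1 1 0 0, mk4 0 0 0 1, mk4 0 0 1 1]

/-- The dual family. -/
def dd : Fin 4 → ((Fin 1 ⊕ Fin 1) ⊕ Fin 2 → ZMod 2) :=
  ![mk4 1 1 0 0, mk4 1 0 0 0, mk4 1 1 1 1, mk4 0 0 0 1]

theorem closure_cert (c : ((Fin 1 ⊕ Fin 1) ⊕ Fin 2 → ZMod 2) → ZMod 2)
    (hadd : ∀ v w, Cfsg.quadFormMinus 1 (ZMod 2) 1 1 v = 1 → Cfsg.quadFormMinus 1 (ZMod 2) 1 1 w = 1 → Cfsg.quadFormMinus 1 (ZMod 2) 1 1 (v + w) = 1 → c (v + w) = c v + c w)
    (hbase : ∀ i, c (bb i) = 0) : ∀ u, Cfsg.quadFormMinus 1 (ZMod 2) 1 1 u = 1 → c u = 0 := by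
  have hb0 : c (mk4 1 0 0 1) = 0 := hbase 0
  have hb1 : c (mk4 1 1 0 0) = 0 := hbase 1
  have hb2 : c (mk4 0 0 0 1) = 0 := hbase 2
  have hb3 : c (mk4 0 0 1 1) = 0 := hbase 3
  have hd0 : c (mk4 0 1 0 1) = 0 :=
    step c hadd 1 1 0 0 1 0 0 1 hb1 hb0 (by decide) (by decide) (by decide)
  have hd1 : c (mk4 1 0 1 0) = 0 :=
    step c hadd 0 0 1 1 1 0 0 1 hb3 hb0 (by decide) (by decide) (by decide)
  have hd2 : c (mk4 0 0 1 0) = 0 :=
    step c hadd 0 0 1 1 0 0 0 1 hb3 hb2 (by decide) (by decide) (by decide)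
  have hd3 : c (mk4 0 1 1 0) = 0 :=
    step c hadd 0 1 0 1 0 0 1 1 hd0 hb3 (by decide) (by decide) (by decide)
  have hd4 : c (mk4 1 0 1 1) = 0 :=
    step c hadd 1 0 1 0 0 0 0 1 hd1 hb2 (by decide) (by decide) (by decide)
  have hd5 : c (mk4 0 1 1 1) = 0 :=
    step c hadd 0 0 1 0 0 1 0 1 hd2 hd0 (by decide) (by decide) (by decide)
  have main : ∀ a0 a1 a2 a3 : ZMod 2, a0 * a1 + (a2 * a2 + a2 * a3 + a3 * a3) = 1 → c (mk4 a0 a1 a2 a3) = 0 :=
    (forall_zmod2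
      (forall_zmod2
        (forall_zmod2
          (forall_zmod2
            (fun hq => absurd hq (by decide))
            (fun _ => hb2))
          (forall_zmod2
            (fun _ => hd2)
            (fun _ => hb3)))
        (forall_zmod2
          (forall_zmod2
            (fun hq => absurd hq (by decide))
            (fun _ => hd0))
          (forall_zmod2
            (fun _ => hd3)
            (fun _ => hd5))))
      (forall_zmod2
        (forall_zmod2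
          (forall_zmod2
            (fun hq => absurd hq (by decide))
            (fun _ => hb0))
          (forall_zmod2
            (fun _ => hd1)
            (fun _ => hd4)))
        (forall_zmod2
          (forall_zmod2
            (fun _ => hb1)
            (fun hq => absurd hq (by decide)))
          (forall_zmod2
            (fun hq => absurd hq (by decide))
            (fun hq => absurd hq (by decide))))))
  intro u hu
  rw [eq_mk u] at hu ⊢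
  rw [q_mk] at hu
  exact main _ _ _ _ hu

theorem dual_cert : ∀ i j, QuadraticMap.polar (Cfsg.quadFormMinus 1 (ZMod 2) 1 1) (dd i) (bb j) = if i = j then 1 else 0 := by
  decide

theorem line_cert : ∃ u w, Cfsg.quadFormMinus 1 (ZMod 2) 1 1 u = 1 ∧ Cfsg.quadFormMinus 1 (ZMod 2) 1 1 w = 1 ∧ Cfsg.quadFormMinus 1 (ZMod 2) 1 1 (u + w) = 1 :=
  ⟨(mk4 1 1 0 0), (mk4 1 0 0 1), by decide, by decide, by decide⟩

end Cfsg.Agent.Lib.Helper98.H1.Cert4
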