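import Mathlib
import Cfsg.Prelude.Def_Classical
import Cfsg.Agent.Lib.Helper98.H1.Cert

set_option autoImplicit false

/-!
Generated certificate: closure of a dual pair of families of non-singular vectors under sums
along non-singular lines, for the form `Cfsg.quadFormMinus 2 (ZMod 2) 1 1`.
-/

namespace Cfsg.Agent.Lib.Helper98.H1.Cert6

open Cfsg.Agent.Lib.Helper98.H1

/-- Vector with the given coordinates. -/
def mk6 (a0 a1 a2 a3 a4 a5 : ZMod 2) : (Fin 2 ⊕ Fin 2) ⊕ Fin 2 → ZMod 2 :=
  Sum.elim (Sum.elim ![a0, a1] ![a2, a3]) ![a4, a5]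

theorem eq_mk (u : (Fin 2 ⊕ Fin 2) ⊕ Fin 2 → ZMod 2) :
    u = mk6 (u (.inl (.inl 0))) (u (.inl (.inl 1))) (u (.inl (.inr 0))) (u (.inl (.inr 1))) (u (.inr 0)) (u (.inr 1)) := by
  funext i
  rcases i with (i | i) | i <;> fin_cases i <;> rfl

theorem q_mk (a0 a1 a2 a3 a4 a5 : ZMod 2) :
    Cfsg.quadFormMinus 2 (ZMod 2) 1 1 (mk6 a0 a1 a2 a3 a4 a5) = a0 * a2 + a1 * a3 + (a4 * a4 + a4 * a5 + a5 * a5) := by
  simp [Cfsg.quadFormMinus, mk6, Fin.sum_univ_two, pow_two]

theorem mk_add (a0 a1 a2 a3 a4 a5 b0 b1 b2 b3 b4 b5 : ZMod 2) :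
    mk6 a0 a1 a2 a3 a4 a5 + mk6 b0 b1 b2 b3 b4 b5 = mk6 (a0 + b0) (a1 + b1) (a2 + b2) (a3 + b3) (a4 + b4) (a5 + b5) := by
  funext i
  rcases i with (i | i) | i <;> fin_cases i <;> rfl

theorem step (c : ((Fin 2 ⊕ Fin 2) ⊕ Fin 2 → ZMod 2) → ZMod 2)
    (hadd : ∀ v w, Cfsg.quadFormMinus 2 (ZMod 2) 1 1 v = 1 → Cfsg.quadFormMinus 2 (ZMod 2) 1 1 w = 1 → Cfsg.quadFormMinus 2 (ZMod 2) 1 1 (v + w) = 1 → c (v + w) = c v + c w)
    (a0 a1 a2 a3 a4 a5 b0 b1 b2 b3 b4 b5 : ZMod 2)
    (hu : c (mk6 a0 a1 a2 a3 a4 a5) = 0) (hw : c (mk6 b0 b1 b2 b3 b4 b5) = 0)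
    (hQu : a0 * a2 + a1 * a3 + (a4 * a4 + a4 * a5 + a5 * a5) = 1) (hQw : b0 * b2 + b1 * b3 + (b4 * b4 + b4 * b5 + b5 * b5) = 1)
    (hQs : (a0 + b0) * (a2 + b2) + (a1 + b1) * (a3 + b3) + ((a4 + b4) * (a4 + b4) + (a4 + b4) * (a5 + b5) + (a5 + b5) * (a5 + b5)) = 1) :
    c (mk6 (a0 + b0) (a1 + b1) (a2 + b2) (a3 + b3) (a4 + b4) (a5 + b5)) = 0 := by
  rw [← mk_add, hadd _ _ (by rw [q_mk]; exact hQu) (by rw [q_mk]; exact hQw)
    (by rw [mk_add, q_mk]; exact hQs), hu, hw, add_zero]

/-- The base family. -/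
def bb : Fin 6 → ((Fin 2 ⊕ Fin 2) ⊕ Fin 2 → ZMod 2) :=
  ![mk6 0 1 1 1 0 0, mk6 1 1 0 0 1 1, mk6 1 0 0 0 1 1, mk6 0 1 0 0 1 0, mk6 0 0 1 0 1 1, mk6 0 0 1 1 0 1]

/-- The dual family. -/
def dd : Fin 6 → ((Fin 2 ⊕ Fin 2) ⊕ Fin 2 → ZMod 2) :=
  ![mk6 1 0 1 0 1 0, mk6 0 1 0 1 1 1, mk6 0 1 1 1 1 1, mk6 1 1 1 0 0 1, mk6 1 1 0 0 0 0, mk6 1 1 1 0 1 0]

theorem closure_cert (c : ((Fin 2 ⊕ Fin 2) ⊕ Fin 2 → ZMod 2) → ZMod 2)
    (hadd : ∀ v w, Cfsg.quadFormMinus 2 (ZMod 2) 1 1 v = 1 → Cfsg.quadFormMinus 2 (ZMod 2) 1 1 w = 1 → Cfsg.quadFormMinus 2 (ZMod 2) 1 1 (v + w) = 1 → c (v + w) = c v + c w)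
    (hbase : ∀ i, c (bb i) = 0) : ∀ u, Cfsg.quadFormMinus 2 (ZMod 2) 1 1 u = 1 → c u = 0 := by
  have hb0 : c (mk6 0 1 1 1 0 0) = 0 := hbase 0
  have hb1 : c (mk6 1 1 0 0 1 1) = 0 := hbase 1
  have hb2 : c (mk6 1 0 0 0 1 1) = 0 := hbase 2
  have hb3 : c (mk6 0 1 0 0 1 0) = 0 := hbase 3
  have hb4 : c (mk6 0 0 1 0 1 1) = 0 := hbase 4
  have hb5 : c (mk6 0 0 1 1 0 1) = 0 := hbase 5
  have hd0 : c (mk6 1 1 1 1 1 1) = 0 :=
    step c hadd 1 0 0 0 1 1 0 1 1 1 0 0 hb2 hb0 (by decide) (by decide) (by decide)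
  have hd1 : c (mk6 0 0 1 1 1 0) = 0 :=
    step c hadd 0 1 0 0 1 0 0 1 1 1 0 0 hb3 hb0 (by decide) (by decide) (by decide)
  have hd2 : c (mk6 1 0 0 0 0 1) = 0 :=
    step c hadd 0 1 0 0 1 0 1 1 0 0 1 1 hb3 hb1 (by decide) (by decide) (by decide)
  have hd3 : c (mk6 1 1 0 0 0 1) = 0 :=
    step c hadd 0 1 0 0 1 0 1 0 0 0 1 1 hb3 hb2 (by decide) (by decide) (by decide)
  have hd4 : c (mk6 1 1 1 0 0 0) = 0 :=
    step c hadd 0 0 1 0 1 1 1 1 0 0 1 1 hb4 hb1 (by decide) (by decide) (by decide)
  have hd5 : c (mk6 1 0 1 0 0 0) = 0 :=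
    step c hadd 0 0 1 0 1 1 1 0 0 0 1 1 hb4 hb2 (by decide) (by decide) (by decide)
  have hd6 : c (mk6 0 1 1 0 0 1) = 0 :=
    step c hadd 0 0 1 0 1 1 0 1 0 0 1 0 hb4 hb3 (by decide) (by decide) (by decide)
  have hd7 : c (mk6 0 1 0 0 0 1) = 0 :=
    step c hadd 0 0 1 1 0 1 0 1 1 1 0 0 hb5 hb0 (by decide) (by decide) (by decide)
  have hd8 : c (mk6 1 1 1 1 1 0) = 0 :=
    step c hadd 0 0 1 1 0 1 1 1 0 0 1 1 hb5 hb1 (by decide) (by decide) (by decide)
  have hd9 : c (mk6 0 0 0 1 1 0) = 0 :=
    step c hadd 0 0 1 1 0 1 0 0 1 0 1 1 hb5 hb4 (by decide) (by decide) (by decide)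
  have hd10 : c (mk6 1 1 0 1 0 0) = 0 :=
    step c hadd 1 1 1 1 1 1 0 0 1 0 1 1 hd0 hb4 (by decide) (by decide) (by decide)
  have hd11 : c (mk6 1 1 0 0 1 0) = 0 :=
    step c hadd 1 1 1 1 1 1 0 0 1 1 0 1 hd0 hb5 (by decide) (by decide) (by decide)
  have hd12 : c (mk6 1 1 1 1 0 1) = 0 :=
    step c hadd 0 0 1 1 1 0 1 1 0 0 1 1 hd1 hb1 (by decide) (by decide) (by decide)
  have hd13 : c (mk6 0 0 0 1 0 1) = 0 :=
    step c hadd 0 0 1 1 1 0 0 0 1 0 1 1 hd1 hb4 (by decide) (by decide) (by decide)
  have hd14 : c (mk6 0 0 0 0 1 1) = 0 :=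
    step c hadd 0 0 1 1 1 0 0 0 1 1 0 1 hd1 hb5 (by decide) (by decide) (by decide)
  have hd15 : c (mk6 0 0 0 0 1 0) = 0 :=
    step c hadd 1 0 0 0 0 1 1 0 0 0 1 1 hd2 hb2 (by decide) (by decide) (by decide)
  have hd16 : c (mk6 1 0 1 1 0 0) = 0 :=
    step c hadd 1 0 0 0 0 1 0 0 1 1 0 1 hd2 hb5 (by decide) (by decide) (by decide)
  have hd17 : c (mk6 0 1 1 0 1 1) = 0 :=
    step c hadd 1 1 1 0 0 0 1 0 0 0 1 1 hd4 hb2 (by decide) (by decide) (by decide)
  have hd18 : c (mk6 0 0 0 1 1 1) = 0 :=
    step c hadd 1 1 1 0 0 0 1 1 1 1 1 1 hd4 hd0 (by decide) (by decide) (by decide)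
  have hd19 : c (mk6 0 0 1 0 0 1) = 0 :=
    step c hadd 1 1 1 0 0 0 1 1 0 0 0 1 hd4 hd3 (by decide) (by decide) (by decide)
  have hd20 : c (mk6 1 0 0 1 0 1) = 0 :=
    step c hadd 1 0 1 0 0 0 0 0 1 1 0 1 hd5 hb5 (by decide) (by decide) (by decide)
  have hd21 : c (mk6 1 0 0 1 1 0) = 0 :=
    step c hadd 1 0 1 0 0 0 0 0 1 1 1 0 hd5 hd1 (by decide) (by decide) (by decide)
  have hd22 : c (mk6 0 1 0 1 0 0) = 0 :=
    step c hadd 0 1 1 0 0 1 0 0 1 1 0 1 hd6 hb5 (by decide) (by decide) (by decide)
  have hd23 : c (mk6 1 0 0 0 1 0) = 0 :=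
    step c hadd 0 1 0 0 0 1 1 1 0 0 1 1 hd7 hb1 (by decide) (by decide) (by decide)
  have hd24 : c (mk6 0 1 1 0 1 0) = 0 :=
    step c hadd 0 1 0 0 0 1 0 0 1 0 1 1 hd7 hb4 (by decide) (by decide) (by decide)
  have hd25 : c (mk6 0 0 0 0 0 1) = 0 :=
    step c hadd 1 1 1 1 1 0 1 1 1 1 1 1 hd8 hd0 (by decide) (by decide) (by decide)
  have hd26 : c (mk6 0 0 1 1 1 1) = 0 :=
    step c hadd 1 1 1 1 1 0 1 1 0 0 0 1 hd8 hd3 (by decide) (by decide) (by decide)
  have hd27 : c (mk6 1 0 0 1 1 1) = 0 :=
    step c hadd 1 1 1 1 1 0 0 1 1 0 0 1 hd8 hd6 (by decide) (by decide) (by decide)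
  have hd28 : c (mk6 0 0 1 0 1 0) = 0 :=
    step c hadd 1 1 0 1 0 0 1 1 1 1 1 0 hd10 hd8 (by decide) (by decide) (by decide)
  have hd29 : c (mk6 0 1 0 0 1 1) = 0 :=
    step c hadd 1 1 0 0 1 0 1 0 0 0 0 1 hd11 hd2 (by decide) (by decide) (by decide)
  have main : ∀ a0 a1 a2 a3 a4 a5 : ZMod 2, a0 * a2 + a1 * a3 + (a4 * a4 + a4 * a5 + a5 * a5) = 1 → c (mk6 a0 a1 a2 a3 a4 a5) = 0 :=
    (forall_zmod2
      (forall_zmod2
        (forall_zmod2
          (forall_zmod2
            (forall_zmod2
              (forall_zmod2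
                (fun hq => absurd hq (by decide))
                (fun _ => hd25))
              (forall_zmod2
                (fun _ => hd15)
                (fun _ => hd14)))
            (forall_zmod2
              (forall_zmod2
                (fun hq => absurd hq (by decide))
                (fun _ => hd13))
              (forall_zmod2
                (fun _ => hd9)
                (fun _ => hd18))))
          (forall_zmod2
            (forall_zmod2
              (forall_zmod2
                (fun hq => absurd hq (by decide))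
                (fun _ => hd19))
              (forall_zmod2
                (fun _ => hd28)
                (fun _ => hb4)))
            (forall_zmod2
              (forall_zmod2
                (fun hq => absurd hq (by decide))
                (fun _ => hb5))
              (forall_zmod2
                (fun _ => hd1)
                (fun _ => hd26)))))
        (forall_zmod2
          (forall_zmod2
            (forall_zmod2
              (forall_zmod2
                (fun hq => absurd hq (by decide))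
                (fun _ => hd7))
              (forall_zmod2
                (fun _ => hb3)
                (fun _ => hd29)))
            (forall_zmod2
              (forall_zmod2
                (fun _ => hd22)
                (fun hq => absurd hq (by decide)))
              (forall_zmod2
                (fun hq => absurd hq (by decide))
                (fun hq => absurd hq (by decide)))))
          (forall_zmod2
            (forall_zmod2
              (forall_zmod2
                (fun hq => absurd hq (by decide))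
                (fun _ => hd6))
              (forall_zmod2
                (fun _ => hd24)
                (fun _ => hd17)))
            (forall_zmod2
              (forall_zmod2
                (fun _ => hb0)
                (fun hq => absurd hq (by decide)))
              (forall_zmod2
                (fun hq => absurd hq (by decide))
                (fun hq => absurd hq (by decide)))))))
      (forall_zmod2
        (forall_zmod2
          (forall_zmod2
            (forall_zmod2
              (forall_zmod2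
                (fun hq => absurd hq (by decide))
                (fun _ => hd2))
              (forall_zmod2
                (fun _ => hd23)
                (fun _ => hb2)))
            (forall_zmod2
              (forall_zmod2
                (fun hq => absurd hq (by decide))
                (fun _ => hd20))
              (forall_zmod2
                (fun _ => hd21)
                (fun _ => hd27))))
          (forall_zmod2
            (forall_zmod2
              (forall_zmod2
                (fun _ => hd5)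
                (fun hq => absurd hq (by decide)))
              (forall_zmod2
                (fun hq => absurd hq (by decide))
                (fun hq => absurd hq (by decide))))
            (forall_zmod2
              (forall_zmod2
                (fun _ => hd16)
                (fun hq => absurd hq (by decide)))
              (forall_zmod2
                (fun hq => absurd hq (by decide))
                (fun hq => absurd hq (by decide))))))
        (forall_zmod2
          (forall_zmod2
            (forall_zmod2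
              (forall_zmod2
                (fun hq => absurd hq (by decide))
                (fun _ => hd3))
              (forall_zmod2
                (fun _ => hd11)
                (fun _ => hb1)))
            (forall_zmod2
              (forall_zmod2
                (fun _ => hd10)
                (fun hq => absurd hq (by decide)))
              (forall_zmod2
                (fun hq => absurd hq (by decide))
                (fun hq => absurd hq (by decide)))))
          (forall_zmod2
            (forall_zmod2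
              (forall_zmod2
                (fun _ => hd4)
                (fun hq => absurd hq (by decide)))
              (forall_zmod2
                (fun hq => absurd hq (by decide))
                (fun hq => absurd hq (by decide))))
            (forall_zmod2
              (forall_zmod2
                (fun hq => absurd hq (by decide))
                (fun _ => hd12))
              (forall_zmod2
                (fun _ => hd8)
                (fun _ => hd0)))))))
  intro u hu
  rw [eq_mk u] at hu ⊢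
  rw [q_mk] at hu
  exact main _ _ _ _ _ _ hu

theorem dual_cert : ∀ i j, QuadraticMap.polar (Cfsg.quadFormMinus 2 (ZMod 2) 1 1) (dd i) (bb j) = if i = j then 1 else 0 := by
  decide

theorem line_cert : ∃ u w, Cfsg.quadFormMinus 2 (ZMod 2) 1 1 u = 1 ∧ Cfsg.quadFormMinus 2 (ZMod 2) 1 1 w = 1 ∧ Cfsg.quadFormMinus 2 (ZMod 2) 1 1 (u + w) = 1 :=
  ⟨(mk6 1 0 0 0 1 1), (mk6 0 1 1 1 0 0), by decide, by decide, by decide⟩

end Cfsg.Agent.Lib.Helper98.H1.Cert6
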