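import Mathlib
import Cfsg.Prelude.Def_Classical
import Cfsg.Agent.Lib.Helper98.H1.Cert

set_option autoImplicit false

/-!
Generated certificate: closure of a dual pair of families of non-singular vectors under sums
along non-singular lines, for the form `Cfsg.quadFormPlus 4 (ZMod 2)`.
-/

namespace Cfsg.Agent.Lib.Helper98.H1.Cert8

open Cfsg.Agent.Lib.Helper98.H1

/-- Vector with the given coordinates. -/
def mk8 (a0 a1 a2 a3 a4 a5 a6 a7 : ZMod 2) : Fin 4 ⊕ Fin 4 → ZMod 2 :=
  Sum.elim ![a0, a1, a2, a3] ![a4, a5, a6, a7]

theorem eq_mk (u : Fin 4 ⊕ Fin 4 → ZMod 2) :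
    u = mk8 (u (.inl 0)) (u (.inl 1)) (u (.inl 2)) (u (.inl 3)) (u (.inr 0)) (u (.inr 1)) (u (.inr 2)) (u (.inr 3)) := by
  funext i
  rcases i with i | i <;> fin_cases i <;> rfl

theorem q_mk (a0 a1 a2 a3 a4 a5 a6 a7 : ZMod 2) :
    Cfsg.quadFormPlus 4 (ZMod 2) (mk8 a0 a1 a2 a3 a4 a5 a6 a7) = a0 * a4 + a1 * a5 + a2 * a6 + a3 * a7 := by
  simp [Cfsg.quadFormPlus, mk8, Fin.sum_univ_four]

theorem mk_add (a0 a1 a2 a3 a4 a5 a6 a7 b0 b1 b2 b3 b4 b5 b6 b7 : ZMod 2) :
    mk8 a0 a1 a2 a3 a4 a5 a6 a7 + mk8 b0 b1 b2 b3 b4 b5 b6 b7 = mk8 (a0 + b0) (a1 + b1) (a2 + b2) (a3 + b3) (a4 + b4) (a5 + b5) (a6 + b6) (a7 + b7) := by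
  funext i
  rcases i with i | i <;> fin_cases i <;> rfl

theorem step (c : (Fin 4 ⊕ Fin 4 → ZMod 2) → ZMod 2)
    (hadd : ∀ v w, Cfsg.quadFormPlus 4 (ZMod 2) v = 1 → Cfsg.quadFormPlus 4 (ZMod 2) w = 1 → Cfsg.quadFormPlus 4 (ZMod 2) (v + w) = 1 → c (v + w) = c v + c w)
    (a0 a1 a2 a3 a4 a5 a6 a7 b0 b1 b2 b3 b4 b5 b6 b7 : ZMod 2)
    (hu : c (mk8 a0 a1 a2 a3 a4 a5 a6 a7) = 0) (hw : c (mk8 b0 b1 b2 b3 b4 b5 b6 b7) = 0)
    (hQu : a0 * a4 + a1 * a5 + a2 * a6 + a3 * a7 = 1) (hQw : b0 * b4 + b1 * b5 + b2 * b6 + b3 * b7 = 1)
    (hQs : (a0 + b0) * (a4 + b4) + (a1 + b1) * (a5 + b5) + (a2 + b2) * (a6 + b6) + (a3 + b3) * (a7 + b7) = 1) :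
    c (mk8 (a0 + b0) (a1 + b1) (a2 + b2) (a3 + b3) (a4 + b4) (a5 + b5) (a6 + b6) (a7 + b7)) = 0 := by
  rw [← mk_add, hadd _ _ (by rw [q_mk]; exact hQu) (by rw [q_mk]; exact hQw)
    (by rw [mk_add, q_mk]; exact hQs), hu, hw, add_zero]

/-- The base family. -/
def bb : Fin 8 → (Fin 4 ⊕ Fin 4 → ZMod 2) :=
  ![mk8 1 0 1 0 1 1 0 0, mk8 1 0 1 1 0 0 1 0, mk8 1 1 1 1 1 0 0 0, mk8 0 1 0 0 0 1 1 0, mk8 1 0 0 1 1 1 0 0, mk8 1 0 0 0 1 1 0 1, mk8 1 0 0 0 1 0 0 0, mk8 1 1 1 0 1 1 1 0]

/-- The dual family. -/
def dd : Fin 8 → (Fin 4 ⊕ Fin 4 → ZMod 2) :=
  ![mk8 1 1 0 1 1 1 0 1, mk8 1 0 0 0 1 0 0 0, mk8 1 0 1 0 1 1 0 0, mk8 0 1 0 1 0 0 1 1, mk8 0 0 1 0 0 1 0 1, mk8 0 0 0 1 0 0 0 0, mk8 0 0 1 1 1 1 1 1, mk8 1 1 1 1 1 0 1 1]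

theorem closure_cert (c : (Fin 4 ⊕ Fin 4 → ZMod 2) → ZMod 2)
    (hadd : ∀ v w, Cfsg.quadFormPlus 4 (ZMod 2) v = 1 → Cfsg.quadFormPlus 4 (ZMod 2) w = 1 → Cfsg.quadFormPlus 4 (ZMod 2) (v + w) = 1 → c (v + w) = c v + c w)
    (hbase : ∀ i, c (bb i) = 0) : ∀ u, Cfsg.quadFormPlus 4 (ZMod 2) u = 1 → c u = 0 := by
  have hb0 : c (mk8 1 0 1 0 1 1 0 0) = 0 := hbase 0
  have hb1 : c (mk8 1 0 1 1 0 0 1 0) = 0 := hbase 1
  have hb2 : c (mk8 1 1 1 1 1 0 0 0) = 0 := hbase 2
  have hb3 : c (mk8 0 1 0 0 0 1 1 0) = 0 := hbase 3
  have hb4 : c (mk8 1 0 0 1 1 1 0 0) = 0 := hbase 4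
  have hb5 : c (mk8 1 0 0 0 1 1 0 1) = 0 := hbase 5
  have hb6 : c (mk8 1 0 0 0 1 0 0 0) = 0 := hbase 6
  have hb7 : c (mk8 1 1 1 0 1 1 1 0) = 0 := hbase 7
  have hd0 : c (mk8 0 1 0 1 0 1 0 0) = 0 :=
    step c hadd 1 1 1 1 1 0 0 0 1 0 1 0 1 1 0 0 hb2 hb0 (by decide) (by decide) (by decide)
  have hd1 : c (mk8 1 1 1 1 0 1 0 0) = 0 :=
    step c hadd 0 1 0 0 0 1 1 0 1 0 1 1 0 0 1 0 hb3 hb1 (by decide) (by decide) (by decide)
  have hd2 : c (mk8 0 0 1 0 1 1 1 0) = 0 :=
    step c hadd 1 0 0 1 1 1 0 0 1 0 1 1 0 0 1 0 hb4 hb1 (by decide) (by decide) (by decide)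
  have hd3 : c (mk8 0 1 1 0 0 1 0 0) = 0 :=
    step c hadd 1 0 0 1 1 1 0 0 1 1 1 1 1 0 0 0 hb4 hb2 (by decide) (by decide) (by decide)
  have hd4 : c (mk8 1 1 0 1 1 0 1 0) = 0 :=
    step c hadd 1 0 0 1 1 1 0 0 0 1 0 0 0 1 1 0 hb4 hb3 (by decide) (by decide) (by decide)
  have hd5 : c (mk8 1 1 0 0 1 0 1 1) = 0 :=
    step c hadd 1 0 0 0 1 1 0 1 0 1 0 0 0 1 1 0 hb5 hb3 (by decide) (by decide) (by decide)
  have hd6 : c (mk8 0 0 0 1 0 0 0 1) = 0 :=
    step c hadd 1 0 0 0 1 1 0 1 1 0 0 1 1 1 0 0 hb5 hb4 (by decide) (by decide) (by decide)
  have hd7 : c (mk8 0 0 1 1 1 0 1 0) = 0 :=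
    step c hadd 1 0 0 0 1 0 0 0 1 0 1 1 0 0 1 0 hb6 hb1 (by decide) (by decide) (by decide)
  have hd8 : c (mk8 0 1 0 1 1 1 0 0) = 0 :=
    step c hadd 1 1 1 0 1 1 1 0 1 0 1 1 0 0 1 0 hb7 hb1 (by decide) (by decide) (by decide)
  have hd9 : c (mk8 1 0 1 0 1 0 0 0) = 0 :=
    step c hadd 1 1 1 0 1 1 1 0 0 1 0 0 0 1 1 0 hb7 hb3 (by decide) (by decide) (by decide)
  have hd10 : c (mk8 0 1 1 1 0 0 1 0) = 0 :=
    step c hadd 1 1 1 0 1 1 1 0 1 0 0 1 1 1 0 0 hb7 hb4 (by decide) (by decide) (by decide)
  have hd11 : c (mk8 0 1 1 0 0 0 1 1) = 0 :=
    step c hadd 1 1 1 0 1 1 1 0 1 0 0 0 1 1 0 1 hb7 hb5 (by decide) (by decide) (by decide)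
  have hd12 : c (mk8 1 1 0 0 1 0 0 0) = 0 :=
    step c hadd 0 1 0 1 0 1 0 0 1 0 0 1 1 1 0 0 hd0 hb4 (by decide) (by decide) (by decide)
  have hd13 : c (mk8 0 1 1 1 1 0 0 1) = 0 :=
    step c hadd 1 1 1 1 0 1 0 0 1 0 0 0 1 1 0 1 hd1 hb5 (by decide) (by decide) (by decide)
  have hd14 : c (mk8 0 1 1 1 1 1 0 0) = 0 :=
    step c hadd 1 1 1 1 0 1 0 0 1 0 0 0 1 0 0 0 hd1 hb6 (by decide) (by decide) (by decide)
  have hd15 : c (mk8 1 1 0 1 0 1 1 0) = 0 :=
    step c hadd 0 0 1 0 1 1 1 0 1 1 1 1 1 0 0 0 hd2 hb2 (by decide) (by decide) (by decide)
  have hd16 : c (mk8 1 0 1 0 0 0 1 1) = 0 :=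
    step c hadd 0 0 1 0 1 1 1 0 1 0 0 0 1 1 0 1 hd2 hb5 (by decide) (by decide) (by decide)
  have hd17 : c (mk8 1 0 1 0 0 1 1 0) = 0 :=
    step c hadd 0 0 1 0 1 1 1 0 1 0 0 0 1 0 0 0 hd2 hb6 (by decide) (by decide) (by decide)
  have hd18 : c (mk8 0 1 1 1 1 0 1 0) = 0 :=
    step c hadd 0 0 1 0 1 1 1 0 0 1 0 1 0 1 0 0 hd2 hd0 (by decide) (by decide) (by decide)
  have hd19 : c (mk8 0 0 1 0 0 0 1 0) = 0 :=
    step c hadd 0 1 1 0 0 1 0 0 0 1 0 0 0 1 1 0 hd3 hb3 (by decide) (by decide) (by decide)
  have hd20 : c (mk8 1 1 1 0 1 0 0 1) = 0 :=
    step c hadd 0 1 1 0 0 1 0 0 1 0 0 0 1 1 0 1 hd3 hb5 (by decide) (by decide) (by decide)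
  have hd21 : c (mk8 1 0 0 0 1 0 1 0) = 0 :=
    step c hadd 0 1 1 0 0 1 0 0 1 1 1 0 1 1 1 0 hd3 hb7 (by decide) (by decide) (by decide)
  have hd22 : c (mk8 1 0 0 0 1 1 1 0) = 0 :=
    step c hadd 1 1 0 1 1 0 1 0 0 1 0 1 0 1 0 0 hd4 hd0 (by decide) (by decide) (by decide)
  have hd23 : c (mk8 1 1 1 0 0 1 0 1) = 0 :=
    step c hadd 1 1 0 0 1 0 1 1 0 0 1 0 1 1 1 0 hd5 hd2 (by decide) (by decide) (by decide)
  have hd24 : c (mk8 0 1 0 0 0 1 0 1) = 0 :=
    step c hadd 0 0 0 1 0 0 0 1 0 1 0 1 0 1 0 0 hd6 hd0 (by decide) (by decide) (by decide)
  have hd25 : c (mk8 1 1 0 1 0 1 0 0) = 0 :=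
    step c hadd 0 0 1 1 1 0 1 0 1 1 1 0 1 1 1 0 hd7 hb7 (by decide) (by decide) (by decide)
  have hd26 : c (mk8 0 1 0 1 1 1 1 0) = 0 :=
    step c hadd 0 0 1 1 1 0 1 0 0 1 1 0 0 1 0 0 hd7 hd3 (by decide) (by decide) (by decide)
  have hd27 : c (mk8 1 1 1 1 0 0 0 1) = 0 :=
    step c hadd 0 0 1 1 1 0 1 0 1 1 0 0 1 0 1 1 hd7 hd5 (by decide) (by decide) (by decide)
  have hd28 : c (mk8 0 0 1 0 1 0 1 1) = 0 :=
    step c hadd 0 0 1 1 1 0 1 0 0 0 0 1 0 0 0 1 hd7 hd6 (by decide) (by decide) (by decide)
  have hd29 : c (mk8 1 1 0 1 0 0 0 1) = 0 :=
    step c hadd 0 1 0 1 1 1 0 0 1 0 0 0 1 1 0 1 hd8 hb5 (by decide) (by decide) (by decide)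
  have hd30 : c (mk8 1 0 0 1 0 1 1 1) = 0 :=
    step c hadd 0 1 0 1 1 1 0 0 1 1 0 0 1 0 1 1 hd8 hd5 (by decide) (by decide) (by decide)
  have hd31 : c (mk8 0 1 0 0 1 1 0 1) = 0 :=
    step c hadd 0 1 0 1 1 1 0 0 0 0 0 1 0 0 0 1 hd8 hd6 (by decide) (by decide) (by decide)
  have hd32 : c (mk8 0 0 1 0 0 1 1 0) = 0 :=
    step c hadd 0 1 1 1 0 0 1 0 0 1 0 1 0 1 0 0 hd10 hd0 (by decide) (by decide) (by decide)
  have hd33 : c (mk8 0 1 0 1 1 0 0 1) = 0 :=
    step c hadd 0 1 1 0 0 0 1 1 0 0 1 1 1 0 1 0 hd11 hd7 (by decide) (by decide) (by decide)
  have hd34 : c (mk8 1 1 1 1 0 0 1 0) = 0 :=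
    step c hadd 1 1 0 0 1 0 0 0 0 0 1 1 1 0 1 0 hd12 hd7 (by decide) (by decide) (by decide)
  have hd35 : c (mk8 0 0 0 1 1 1 0 1) = 0 :=
    step c hadd 0 1 1 1 1 0 0 1 0 1 1 0 0 1 0 0 hd13 hd3 (by decide) (by decide) (by decide)
  have hd36 : c (mk8 1 0 1 1 0 0 0 1) = 0 :=
    step c hadd 0 1 1 1 1 0 0 1 1 1 0 0 1 0 0 0 hd13 hd12 (by decide) (by decide) (by decide)
  have hd37 : c (mk8 0 1 1 0 1 1 0 1) = 0 :=
    step c hadd 0 1 1 1 1 1 0 0 0 0 0 1 0 0 0 1 hd14 hd6 (by decide) (by decide) (by decide)
  have hd38 : c (mk8 0 0 0 1 1 1 1 1) = 0 :=
    step c hadd 0 1 1 1 1 1 0 0 0 1 1 0 0 0 1 1 hd14 hd11 (by decide) (by decide) (by decide)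
  have hd39 : c (mk8 0 1 0 1 1 0 1 1) = 0 :=
    step c hadd 1 1 0 1 0 1 1 0 1 0 0 0 1 1 0 1 hd15 hb5 (by decide) (by decide) (by decide)
  have hd40 : c (mk8 1 1 0 0 0 1 1 1) = 0 :=
    step c hadd 1 1 0 1 0 1 1 0 0 0 0 1 0 0 0 1 hd15 hd6 (by decide) (by decide) (by decide)
  have hd41 : c (mk8 1 0 1 1 0 1 0 1) = 0 :=
    step c hadd 1 1 0 1 0 1 1 0 0 1 1 0 0 0 1 1 hd15 hd11 (by decide) (by decide) (by decide)
  have hd42 : c (mk8 1 1 1 1 0 1 1 1) = 0 :=
    step c hadd 1 0 1 0 0 0 1 1 0 1 0 1 0 1 0 0 hd16 hd0 (by decide) (by decide) (by decide)
  have hd43 : c (mk8 0 1 1 0 1 0 1 1) = 0 :=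
    step c hadd 1 0 1 0 0 0 1 1 1 1 0 0 1 0 0 0 hd16 hd12 (by decide) (by decide) (by decide)
  have hd44 : c (mk8 1 1 0 1 1 1 1 1) = 0 :=
    step c hadd 1 0 1 0 0 0 1 1 0 1 1 1 1 1 0 0 hd16 hd14 (by decide) (by decide) (by decide)
  have hd45 : c (mk8 1 1 0 0 0 1 0 1) = 0 :=
    step c hadd 1 0 1 0 0 1 1 0 0 1 1 0 0 0 1 1 hd17 hd11 (by decide) (by decide) (by decide)
  have hd46 : c (mk8 0 0 0 1 1 0 0 1) = 0 :=
    step c hadd 0 1 1 1 1 0 1 0 0 1 1 0 0 0 1 1 hd18 hd11 (by decide) (by decide) (by decide)
  have hd47 : c (mk8 1 1 0 1 0 0 1 1) = 0 :=
    step c hadd 1 1 1 0 1 0 0 1 0 0 1 1 1 0 1 0 hd20 hd7 (by decide) (by decide) (by decide)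
  have hd48 : c (mk8 1 0 0 1 0 1 0 1) = 0 :=
    step c hadd 1 1 1 0 1 0 0 1 0 1 1 1 1 1 0 0 hd20 hd14 (by decide) (by decide) (by decide)
  have hd49 : c (mk8 0 1 0 0 1 1 1 1) = 0 :=
    step c hadd 1 1 1 0 1 0 0 1 1 0 1 0 0 1 1 0 hd20 hd17 (by decide) (by decide) (by decide)
  have hd50 : c (mk8 1 0 0 1 0 0 1 1) = 0 :=
    step c hadd 1 1 1 0 1 0 0 1 0 1 1 1 1 0 1 0 hd20 hd18 (by decide) (by decide) (by decide)
  have hd51 : c (mk8 0 1 1 1 1 1 1 1) = 0 :=
    step c hadd 0 1 0 0 0 1 0 1 0 0 1 1 1 0 1 0 hd24 hd7 (by decide) (by decide) (by decide)
  have hd52 : c (mk8 0 0 1 1 1 0 0 1) = 0 :=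
    step c hadd 0 1 0 0 0 1 0 1 0 1 1 1 1 1 0 0 hd24 hd14 (by decide) (by decide) (by decide)
  have hd53 : c (mk8 1 1 1 0 0 0 1 1) = 0 :=
    step c hadd 0 1 0 0 0 1 0 1 1 0 1 0 0 1 1 0 hd24 hd17 (by decide) (by decide) (by decide)
  have hd54 : c (mk8 1 0 1 0 1 1 0 1) = 0 :=
    step c hadd 1 1 0 1 0 1 0 0 0 1 1 1 1 0 0 1 hd25 hd13 (by decide) (by decide) (by decide)
  have hd55 : c (mk8 0 1 1 1 0 1 1 1) = 0 :=
    step c hadd 1 1 0 1 0 1 0 0 1 0 1 0 0 0 1 1 hd25 hd16 (by decide) (by decide) (by decide)
  have hd56 : c (mk8 0 0 1 1 1 1 0 1) = 0 :=
    step c hadd 1 1 0 1 0 1 0 0 1 1 1 0 1 0 0 1 hd25 hd20 (by decide) (by decide) (by decide)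
  have hd57 : c (mk8 0 0 1 1 0 0 0 1) = 0 :=
    step c hadd 1 1 0 1 0 1 0 0 1 1 1 0 0 1 0 1 hd25 hd23 (by decide) (by decide) (by decide)
  have hd58 : c (mk8 1 0 0 1 0 0 0 1) = 0 :=
    step c hadd 1 1 0 1 0 1 0 0 0 1 0 0 0 1 0 1 hd25 hd24 (by decide) (by decide) (by decide)
  have hd59 : c (mk8 0 0 1 0 0 1 1 1) = 0 :=
    step c hadd 0 1 0 1 1 1 1 0 0 1 1 1 1 0 0 1 hd26 hd13 (by decide) (by decide) (by decide)
  have hd60 : c (mk8 1 1 1 1 1 1 0 1) = 0 :=
    step c hadd 0 1 0 1 1 1 1 0 1 0 1 0 0 0 1 1 hd26 hd16 (by decide) (by decide) (by decide)
  have hd61 : c (mk8 1 0 1 1 1 0 1 1) = 0 :=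
    step c hadd 0 1 0 1 1 1 1 0 1 1 1 0 0 1 0 1 hd26 hd23 (by decide) (by decide) (by decide)
  have hd62 : c (mk8 0 0 0 1 1 0 1 1) = 0 :=
    step c hadd 0 1 0 1 1 1 1 0 0 1 0 0 0 1 0 1 hd26 hd24 (by decide) (by decide) (by decide)
  have hd63 : c (mk8 1 0 0 0 1 0 1 1) = 0 :=
    step c hadd 1 1 1 1 0 0 0 1 0 1 1 1 1 0 1 0 hd27 hd18 (by decide) (by decide) (by decide)
  have hd64 : c (mk8 0 1 0 1 0 0 0 1) = 0 :=
    step c hadd 0 0 1 0 1 0 1 1 0 1 1 1 1 0 1 0 hd28 hd18 (by decide) (by decide) (by decide)
  have hd65 : c (mk8 1 0 0 0 1 1 1 1) = 0 :=
    step c hadd 1 1 0 1 0 0 0 1 0 1 0 1 1 1 1 0 hd29 hd26 (by decide) (by decide) (by decide)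
  have hd66 : c (mk8 1 1 0 0 1 0 0 1) = 0 :=
    step c hadd 1 0 0 1 0 1 1 1 0 1 0 1 1 1 1 0 hd30 hd26 (by decide) (by decide) (by decide)
  have hd67 : c (mk8 1 0 1 1 1 1 0 0) = 0 :=
    step c hadd 1 0 0 1 0 1 1 1 0 0 1 0 1 0 1 1 hd30 hd28 (by decide) (by decide) (by decide)
  have hd68 : c (mk8 0 0 0 1 0 0 1 1) = 0 :=
    step c hadd 0 1 0 0 1 1 0 1 0 1 0 1 1 1 1 0 hd31 hd26 (by decide) (by decide) (by decide)
  have hd69 : c (mk8 0 0 1 0 0 0 1 1) = 0 :=
    step c hadd 0 1 0 1 1 0 0 1 0 1 1 1 1 0 1 0 hd33 hd18 (by decide) (by decide) (by decide)
  have hd70 : c (mk8 0 0 0 1 0 1 1 1) = 0 :=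
    step c hadd 1 1 1 1 0 0 1 0 1 1 1 0 0 1 0 1 hd34 hd23 (by decide) (by decide) (by decide)
  have hd71 : c (mk8 0 1 1 0 0 1 0 1) = 0 :=
    step c hadd 1 1 1 1 0 0 1 0 1 0 0 1 0 1 1 1 hd34 hd30 (by decide) (by decide) (by decide)
  have hd72 : c (mk8 1 0 1 1 1 1 1 1) = 0 :=
    step c hadd 1 1 1 1 0 0 1 0 0 1 0 0 1 1 0 1 hd34 hd31 (by decide) (by decide) (by decide)
  have hd73 : c (mk8 0 0 1 1 0 1 1 0) = 0 :=
    step c hadd 0 0 0 1 1 1 0 1 0 0 1 0 1 0 1 1 hd35 hd28 (by decide) (by decide) (by decide)
  have hd74 : c (mk8 0 1 0 0 0 1 0 0) = 0 :=
    step c hadd 0 0 0 1 1 1 0 1 0 1 0 1 1 0 0 1 hd35 hd33 (by decide) (by decide) (by decide)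
  have hd75 : c (mk8 1 1 1 0 1 1 1 1) = 0 :=
    step c hadd 0 0 0 1 1 1 0 1 1 1 1 1 0 0 1 0 hd35 hd34 (by decide) (by decide) (by decide)
  have hd76 : c (mk8 1 0 0 1 1 0 1 0) = 0 :=
    step c hadd 1 0 1 1 0 0 0 1 0 0 1 0 1 0 1 1 hd36 hd28 (by decide) (by decide) (by decide)
  have hd77 : c (mk8 1 1 1 0 1 0 0 0) = 0 :=
    step c hadd 1 0 1 1 0 0 0 1 0 1 0 1 1 0 0 1 hd36 hd33 (by decide) (by decide) (by decide)
  have hd78 : c (mk8 1 0 1 0 1 0 0 1) = 0 :=
    step c hadd 0 1 0 1 1 0 1 1 1 1 1 1 0 0 1 0 hd39 hd34 (by decide) (by decide) (by decide)
  have hd79 : c (mk8 1 0 0 1 1 1 1 0) = 0 :=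
    step c hadd 1 1 0 0 0 1 1 1 0 1 0 1 1 0 0 1 hd40 hd33 (by decide) (by decide) (by decide)
  have hd80 : c (mk8 0 0 1 1 0 1 0 1) = 0 :=
    step c hadd 1 1 0 0 0 1 1 1 1 1 1 1 0 0 1 0 hd40 hd34 (by decide) (by decide) (by decide)
  have hd81 : c (mk8 1 1 0 1 1 0 0 0) = 0 :=
    step c hadd 1 1 0 0 0 1 1 1 0 0 0 1 1 1 1 1 hd40 hd38 (by decide) (by decide) (by decide)
  have hd82 : c (mk8 0 1 0 0 0 1 1 1) = 0 :=
    step c hadd 1 0 1 1 0 1 0 1 1 1 1 1 0 0 1 0 hd41 hd34 (by decide) (by decide) (by decide)
  have hd83 : c (mk8 0 0 1 1 0 0 1 0) = 0 :=
    step c hadd 0 1 1 0 1 0 1 1 0 1 0 1 1 0 0 1 hd43 hd33 (by decide) (by decide) (by decide)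
  have hd84 : c (mk8 0 1 1 1 0 1 0 0) = 0 :=
    step c hadd 0 1 1 0 1 0 1 1 0 0 0 1 1 1 1 1 hd43 hd38 (by decide) (by decide) (by decide)
  have hd85 : c (mk8 0 1 1 0 1 0 1 0) = 0 :=
    step c hadd 1 1 0 1 1 1 1 1 1 0 1 1 0 1 0 1 hd44 hd41 (by decide) (by decide) (by decide)
  have hd86 : c (mk8 1 1 0 0 0 1 1 0) = 0 :=
    step c hadd 0 0 0 1 1 0 0 1 1 1 0 1 1 1 1 1 hd46 hd44 (by decide) (by decide) (by decide)
  have hd87 : c (mk8 0 1 1 0 0 0 1 0) = 0 :=
    step c hadd 1 1 0 1 0 0 1 1 1 0 1 1 0 0 0 1 hd47 hd36 (by decide) (by decide) (by decide)
  have hd88 : c (mk8 1 0 1 1 1 0 0 0) = 0 :=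
    step c hadd 1 1 0 1 0 0 1 1 0 1 1 0 1 0 1 1 hd47 hd43 (by decide) (by decide) (by decide)
  have hd89 : c (mk8 1 1 0 0 1 0 1 0) = 0 :=
    step c hadd 1 1 0 1 0 0 1 1 0 0 0 1 1 0 0 1 hd47 hd46 (by decide) (by decide) (by decide)
  have hd90 : c (mk8 1 1 1 1 1 1 1 0) = 0 :=
    step c hadd 1 0 0 1 0 1 0 1 0 1 1 0 1 0 1 1 hd48 hd43 (by decide) (by decide) (by decide)
  have hd91 : c (mk8 1 0 0 0 1 1 0 0) = 0 :=
    step c hadd 1 0 0 1 0 1 0 1 0 0 0 1 1 0 0 1 hd48 hd46 (by decide) (by decide) (by decide)
  have hd92 : c (mk8 0 1 0 1 0 1 1 0) = 0 :=
    step c hadd 0 1 0 0 1 1 1 1 0 0 0 1 1 0 0 1 hd49 hd46 (by decide) (by decide) (by decide)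
  have hd93 : c (mk8 0 1 0 0 1 1 0 0) = 0 :=
    step c hadd 1 0 0 1 0 0 1 1 1 1 0 1 1 1 1 1 hd50 hd44 (by decide) (by decide) (by decide)
  have hd94 : c (mk8 1 1 1 0 0 0 1 0) = 0 :=
    step c hadd 1 0 1 0 1 1 0 1 0 1 0 0 1 1 1 1 hd54 hd49 (by decide) (by decide) (by decide)
  have hd95 : c (mk8 0 0 1 1 1 1 1 0) = 0 :=
    step c hadd 1 0 1 0 1 1 0 1 1 0 0 1 0 0 1 1 hd54 hd50 (by decide) (by decide) (by decide)
  have hd96 : c (mk8 0 1 0 0 1 1 1 0) = 0 :=
    step c hadd 1 0 1 0 1 1 0 1 1 1 1 0 0 0 1 1 hd54 hd53 (by decide) (by decide) (by decide)
  have hd97 : c (mk8 1 1 1 0 0 1 0 0) = 0 :=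
    step c hadd 0 1 1 1 0 1 1 1 1 0 0 1 0 0 1 1 hd55 hd50 (by decide) (by decide) (by decide)
  have hd98 : c (mk8 1 0 1 0 0 0 1 0) = 0 :=
    step c hadd 0 0 1 1 0 0 0 1 1 0 0 1 0 0 1 1 hd57 hd50 (by decide) (by decide) (by decide)
  have hd99 : c (mk8 1 1 0 0 0 1 0 0) = 0 :=
    step c hadd 0 0 1 0 0 1 1 1 1 1 1 0 0 0 1 1 hd59 hd53 (by decide) (by decide) (by decide)
  have hd100 : c (mk8 1 0 1 1 0 1 1 0) = 0 :=
    step c hadd 0 0 1 0 0 1 1 1 1 0 0 1 0 0 0 1 hd59 hd58 (by decide) (by decide) (by decide)
  have hd101 : c (mk8 0 1 1 0 1 1 0 0) = 0 :=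
    step c hadd 1 1 1 1 1 1 0 1 1 0 0 1 0 0 0 1 hd60 hd58 (by decide) (by decide) (by decide)
  have hd102 : c (mk8 0 0 1 0 1 0 1 0) = 0 :=
    step c hadd 1 0 1 1 1 0 1 1 1 0 0 1 0 0 0 1 hd61 hd58 (by decide) (by decide) (by decide)
  have hd103 : c (mk8 1 0 0 1 1 0 0 0) = 0 :=
    step c hadd 1 1 0 0 1 0 0 1 0 1 0 1 0 0 0 1 hd66 hd64 (by decide) (by decide) (by decide)
  have hd104 : c (mk8 0 0 1 0 1 1 1 1) = 0 :=
    step c hadd 1 0 1 1 1 1 0 0 1 0 0 1 0 0 1 1 hd67 hd50 (by decide) (by decide) (by decide)
  have hd105 : c (mk8 1 0 1 0 0 1 1 1) = 0 :=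
    step c hadd 1 0 1 1 1 1 0 0 0 0 0 1 1 0 1 1 hd67 hd62 (by decide) (by decide) (by decide)
  have hd106 : c (mk8 0 0 0 1 0 1 0 1) = 0 :=
    step c hadd 0 0 1 1 0 1 1 0 0 0 1 0 0 0 1 1 hd73 hd69 (by decide) (by decide) (by decide)
  have hd107 : c (mk8 0 1 0 1 0 0 1 1) = 0 :=
    step c hadd 0 0 1 1 0 1 1 0 0 1 1 0 0 1 0 1 hd73 hd71 (by decide) (by decide) (by decide)
  have hd108 : c (mk8 1 0 0 0 1 0 0 1) = 0 :=
    step c hadd 0 0 1 1 0 1 1 0 1 0 1 1 1 1 1 1 hd73 hd72 (by decide) (by decide) (by decide)
  have hd109 : c (mk8 1 1 1 1 1 0 1 1) = 0 :=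
    step c hadd 0 1 0 0 0 1 0 0 1 0 1 1 1 1 1 1 hd74 hd72 (by decide) (by decide) (by decide)
  have hd110 : c (mk8 0 1 1 1 0 0 0 1) = 0 :=
    step c hadd 1 0 0 1 1 1 1 0 1 1 1 0 1 1 1 1 hd79 hd75 (by decide) (by decide) (by decide)
  have hd111 : c (mk8 1 1 0 1 1 1 0 1) = 0 :=
    step c hadd 0 0 1 1 0 1 0 1 1 1 1 0 1 0 0 0 hd80 hd77 (by decide) (by decide) (by decide)
  have main : ∀ a0 a1 a2 a3 a4 a5 a6 a7 : ZMod 2, a0 * a4 + a1 * a5 + a2 * a6 + a3 * a7 = 1 → c (mk8 a0 a1 a2 a3 a4 a5 a6 a7) = 0 :=
    (forall_zmod2
      (forall_zmod2
        (forall_zmod2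
          (forall_zmod2
            (forall_zmod2
              (forall_zmod2
                (forall_zmod2
                  (forall_zmod2
                    (fun hq => absurd hq (by decide))
                    (fun hq => absurd hq (by decide)))
                  (forall_zmod2
                    (fun hq => absurd hq (by decide))
                    (fun hq => absurd hq (by decide))))
                (forall_zmod2
                  (forall_zmod2
                    (fun hq => absurd hq (by decide))
                    (fun hq => absurd hq (by decide)))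
                  (forall_zmod2
                    (fun hq => absurd hq (by decide))
                    (fun hq => absurd hq (by decide)))))
              (forall_zmod2
                (forall_zmod2
                  (forall_zmod2
                    (fun hq => absurd hq (by decide))
                    (fun hq => absurd hq (by decide)))
                  (forall_zmod2
                    (fun hq => absurd hq (by decide))
                    (fun hq => absurd hq (by decide))))
                (forall_zmod2
                  (forall_zmod2
                    (fun hq => absurd hq (by decide))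
                    (fun hq => absurd hq (by decide)))
                  (forall_zmod2
                    (fun hq => absurd hq (by decide))
                    (fun hq => absurd hq (by decide))))))
            (forall_zmod2
              (forall_zmod2
                (forall_zmod2
                  (forall_zmod2
                    (fun hq => absurd hq (by decide))
                    (fun _ => hd6))
                  (forall_zmod2
                    (fun hq => absurd hq (by decide))
                    (fun _ => hd68)))
                (forall_zmod2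
                  (forall_zmod2
                    (fun hq => absurd hq (by decide))
                    (fun _ => hd106))
                  (forall_zmod2
                    (fun hq => absurd hq (by decide))
                    (fun _ => hd70))))
              (forall_zmod2
                (forall_zmod2
                  (forall_zmod2
                    (fun hq => absurd hq (by decide))
                    (fun _ => hd46))
                  (forall_zmod2
                    (fun hq => absurd hq (by decide))
                    (fun _ => hd62)))
                (forall_zmod2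
                  (forall_zmod2
                    (fun hq => absurd hq (by decide))
                    (fun _ => hd35))
                  (forall_zmod2
                    (fun hq => absurd hq (by decide))
                    (fun _ => hd38))))))
          (forall_zmod2
            (forall_zmod2
              (forall_zmod2
                (forall_zmod2
                  (forall_zmod2
                    (fun hq => absurd hq (by decide))
                    (fun hq => absurd hq (by decide)))
                  (forall_zmod2
                    (fun _ => hd19)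
                    (fun _ => hd69)))
                (forall_zmod2
                  (forall_zmod2
                    (fun hq => absurd hq (by decide))
                    (fun hq => absurd hq (by decide)))
                  (forall_zmod2
                    (fun _ => hd32)
                    (fun _ => hd59))))
              (forall_zmod2
                (forall_zmod2
                  (forall_zmod2
                    (fun hq => absurd hq (by decide))
                    (fun hq => absurd hq (by decide)))
                  (forall_zmod2
                    (fun _ => hd102)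
                    (fun _ => hd28)))
                (forall_zmod2
                  (forall_zmod2
                    (fun hq => absurd hq (by decide))
                    (fun hq => absurd hq (by decide)))
                  (forall_zmod2
                    (fun _ => hd2)
                    (fun _ => hd104)))))
            (forall_zmod2
              (forall_zmod2
                (forall_zmod2
                  (forall_zmod2
                    (fun hq => absurd hq (by decide))
                    (fun _ => hd57))
                  (forall_zmod2
                    (fun _ => hd83)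
                    (fun hq => absurd hq (by decide))))
                (forall_zmod2
                  (forall_zmod2
                    (fun hq => absurd hq (by decide))
                    (fun _ => hd80))
                  (forall_zmod2
                    (fun _ => hd73)
                    (fun hq => absurd hq (by decide)))))
              (forall_zmod2
                (forall_zmod2
                  (forall_zmod2
                    (fun hq => absurd hq (by decide))
                    (fun _ => hd52))
                  (forall_zmod2
                    (fun _ => hd7)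
                    (fun hq => absurd hq (by decide))))
                (forall_zmod2
                  (forall_zmod2
                    (fun hq => absurd hq (by decide))
                    (fun _ => hd56))
                  (forall_zmod2
                    (fun _ => hd95)
                    (fun hq => absurd hq (by decide))))))))
        (forall_zmod2
          (forall_zmod2
            (forall_zmod2
              (forall_zmod2
                (forall_zmod2
                  (forall_zmod2
                    (fun hq => absurd hq (by decide))
                    (fun hq => absurd hq (by decide)))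
                  (forall_zmod2
                    (fun hq => absurd hq (by decide))
                    (fun hq => absurd hq (by decide))))
                (forall_zmod2
                  (forall_zmod2
                    (fun _ => hd74)
                    (fun _ => hd24))
                  (forall_zmod2
                    (fun _ => hb3)
                    (fun _ => hd82))))
              (forall_zmod2
                (forall_zmod2
                  (forall_zmod2
                    (fun hq => absurd hq (by decide))
                    (fun hq => absurd hq (by decide)))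
                  (forall_zmod2
                    (fun hq => absurd hq (by decide))
                    (fun hq => absurd hq (by decide))))
                (forall_zmod2
                  (forall_zmod2
                    (fun _ => hd93)
                    (fun _ => hd31))
                  (forall_zmod2
                    (fun _ => hd96)
                    (fun _ => hd49)))))
            (forall_zmod2
              (forall_zmod2
                (forall_zmod2
                  (forall_zmod2
                    (fun hq => absurd hq (by decide))
                    (fun _ => hd64))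
                  (forall_zmod2
                    (fun hq => absurd hq (by decide))
                    (fun _ => hd107)))
                (forall_zmod2
                  (forall_zmod2
                    (fun _ => hd0)
                    (fun hq => absurd hq (by decide)))
                  (forall_zmod2
                    (fun _ => hd92)
                    (fun hq => absurd hq (by decide)))))
              (forall_zmod2
                (forall_zmod2
                  (forall_zmod2
                    (fun hq => absurd hq (by decide))
                    (fun _ => hd33))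
                  (forall_zmod2
                    (fun hq => absurd hq (by decide))
                    (fun _ => hd39)))
                (forall_zmod2
                  (forall_zmod2
                    (fun _ => hd8)
                    (fun hq => absurd hq (by decide)))
                  (forall_zmod2
                    (fun _ => hd26)
                    (fun hq => absurd hq (by decide)))))))
          (forall_zmod2
            (forall_zmod2
              (forall_zmod2
                (forall_zmod2
                  (forall_zmod2
                    (fun hq => absurd hq (by decide))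
                    (fun hq => absurd hq (by decide)))
                  (forall_zmod2
                    (fun _ => hd87)
                    (fun _ => hd11)))
                (forall_zmod2
                  (forall_zmod2
                    (fun _ => hd3)
                    (fun _ => hd71))
                  (forall_zmod2
                    (fun hq => absurd hq (by decide))
                    (fun hq => absurd hq (by decide)))))
              (forall_zmod2
                (forall_zmod2
                  (forall_zmod2
                    (fun hq => absurd hq (by decide))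
                    (fun hq => absurd hq (by decide)))
                  (forall_zmod2
                    (fun _ => hd85)
                    (fun _ => hd43)))
                (forall_zmod2
                  (forall_zmod2
                    (fun _ => hd101)
                    (fun _ => hd37))
                  (forall_zmod2
                    (fun hq => absurd hq (by decide))
                    (fun hq => absurd hq (by decide))))))
            (forall_zmod2
              (forall_zmod2
                (forall_zmod2
                  (forall_zmod2
                    (fun hq => absurd hq (by decide))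
                    (fun _ => hd110))
                  (forall_zmod2
                    (fun _ => hd10)
                    (fun hq => absurd hq (by decide))))
                (forall_zmod2
                  (forall_zmod2
                    (fun _ => hd84)
                    (fun hq => absurd hq (by decide)))
                  (forall_zmod2
                    (fun hq => absurd hq (by decide))
                    (fun _ => hd55))))
              (forall_zmod2
                (forall_zmod2
                  (forall_zmod2
                    (fun hq => absurd hq (by decide))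
                    (fun _ => hd13))
                  (forall_zmod2
                    (fun _ => hd18)
                    (fun hq => absurd hq (by decide))))
                (forall_zmod2
                  (forall_zmod2
                    (fun _ => hd14)
                    (fun hq => absurd hq (by decide)))
                  (forall_zmod2
                    (fun hq => absurd hq (by decide))
                    (fun _ => hd51))))))))
      (forall_zmod2
        (forall_zmod2
          (forall_zmod2
            (forall_zmod2
              (forall_zmod2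
                (forall_zmod2
                  (forall_zmod2
                    (fun hq => absurd hq (by decide))
                    (fun hq => absurd hq (by decide)))
                  (forall_zmod2
                    (fun hq => absurd hq (by decide))
                    (fun hq => absurd hq (by decide))))
                (forall_zmod2
                  (forall_zmod2
                    (fun hq => absurd hq (by decide))
                    (fun hq => absurd hq (by decide)))
                  (forall_zmod2
                    (fun hq => absurd hq (by decide))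
                    (fun hq => absurd hq (by decide)))))
              (forall_zmod2
                (forall_zmod2
                  (forall_zmod2
                    (fun _ => hb6)
                    (fun _ => hd108))
                  (forall_zmod2
                    (fun _ => hd21)
                    (fun _ => hd63)))
                (forall_zmod2
                  (forall_zmod2
                    (fun _ => hd91)
                    (fun _ => hb5))
                  (forall_zmod2
                    (fun _ => hd22)
                    (fun _ => hd65)))))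
            (forall_zmod2
              (forall_zmod2
                (forall_zmod2
                  (forall_zmod2
                    (fun hq => absurd hq (by decide))
                    (fun _ => hd58))
                  (forall_zmod2
                    (fun hq => absurd hq (by decide))
                    (fun _ => hd50)))
                (forall_zmod2
                  (forall_zmod2
                    (fun hq => absurd hq (by decide))
                    (fun _ => hd48))
                  (forall_zmod2
                    (fun hq => absurd hq (by decide))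
                    (fun _ => hd30))))
              (forall_zmod2
                (forall_zmod2
                  (forall_zmod2
                    (fun _ => hd103)
                    (fun hq => absurd hq (by decide)))
                  (forall_zmod2
                    (fun _ => hd76)
                    (fun hq => absurd hq (by decide))))
                (forall_zmod2
                  (forall_zmod2
                    (fun _ => hb4)
                    (fun hq => absurd hq (by decide)))
                  (forall_zmod2
                    (fun _ => hd79)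
                    (fun hq => absurd hq (by decide)))))))
          (forall_zmod2
            (forall_zmod2
              (forall_zmod2
                (forall_zmod2
                  (forall_zmod2
                    (fun hq => absurd hq (by decide))
                    (fun hq => absurd hq (by decide)))
                  (forall_zmod2
                    (fun _ => hd98)
                    (fun _ => hd16)))
                (forall_zmod2
                  (forall_zmod2
                    (fun hq => absurd hq (by decide))
                    (fun hq => absurd hq (by decide)))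
                  (forall_zmod2
                    (fun _ => hd17)
                    (fun _ => hd105))))
              (forall_zmod2
                (forall_zmod2
                  (forall_zmod2
                    (fun _ => hd9)
                    (fun _ => hd78))
                  (forall_zmod2
                    (fun hq => absurd hq (by decide))
                    (fun hq => absurd hq (by decide))))
                (forall_zmod2
                  (forall_zmod2
                    (fun _ => hb0)
                    (fun _ => hd54))
                  (forall_zmod2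
                    (fun hq => absurd hq (by decide))
                    (fun hq => absurd hq (by decide))))))
            (forall_zmod2
              (forall_zmod2
                (forall_zmod2
                  (forall_zmod2
                    (fun hq => absurd hq (by decide))
                    (fun _ => hd36))
                  (forall_zmod2
                    (fun _ => hb1)
                    (fun hq => absurd hq (by decide))))
                (forall_zmod2
                  (forall_zmod2
                    (fun hq => absurd hq (by decide))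
                    (fun _ => hd41))
                  (forall_zmod2
                    (fun _ => hd100)
                    (fun hq => absurd hq (by decide)))))
              (forall_zmod2
                (forall_zmod2
                  (forall_zmod2
                    (fun _ => hd88)
                    (fun hq => absurd hq (by decide)))
                  (forall_zmod2
                    (fun hq => absurd hq (by decide))
                    (fun _ => hd61)))
                (forall_zmod2
                  (forall_zmod2
                    (fun _ => hd67)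
                    (fun hq => absurd hq (by decide)))
                  (forall_zmod2
                    (fun hq => absurd hq (by decide))
                    (fun _ => hd72)))))))
        (forall_zmod2
          (forall_zmod2
            (forall_zmod2
              (forall_zmod2
                (forall_zmod2
                  (forall_zmod2
                    (fun hq => absurd hq (by decide))
                    (fun hq => absurd hq (by decide)))
                  (forall_zmod2
                    (fun hq => absurd hq (by decide))
                    (fun hq => absurd hq (by decide))))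
                (forall_zmod2
                  (forall_zmod2
                    (fun _ => hd99)
                    (fun _ => hd45))
                  (forall_zmod2
                    (fun _ => hd86)
                    (fun _ => hd40))))
              (forall_zmod2
                (forall_zmod2
                  (forall_zmod2
                    (fun _ => hd12)
                    (fun _ => hd66))
                  (forall_zmod2
                    (fun _ => hd89)
                    (fun _ => hd5)))
                (forall_zmod2
                  (forall_zmod2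
                    (fun hq => absurd hq (by decide))
                    (fun hq => absurd hq (by decide)))
                  (forall_zmod2
                    (fun hq => absurd hq (by decide))
                    (fun hq => absurd hq (by decide))))))
            (forall_zmod2
              (forall_zmod2
                (forall_zmod2
                  (forall_zmod2
                    (fun hq => absurd hq (by decide))
                    (fun _ => hd29))
                  (forall_zmod2
                    (fun hq => absurd hq (by decide))
                    (fun _ => hd47)))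
                (forall_zmod2
                  (forall_zmod2
                    (fun _ => hd25)
                    (fun hq => absurd hq (by decide)))
                  (forall_zmod2
                    (fun _ => hd15)
                    (fun hq => absurd hq (by decide)))))
              (forall_zmod2
                (forall_zmod2
                  (forall_zmod2
                    (fun _ => hd81)
                    (fun hq => absurd hq (by decide)))
                  (forall_zmod2
                    (fun _ => hd4)
                    (fun hq => absurd hq (by decide))))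
                (forall_zmod2
                  (forall_zmod2
                    (fun hq => absurd hq (by decide))
                    (fun _ => hd111))
                  (forall_zmod2
                    (fun hq => absurd hq (by decide))
                    (fun _ => hd44))))))
          (forall_zmod2
            (forall_zmod2
              (forall_zmod2
                (forall_zmod2
                  (forall_zmod2
                    (fun hq => absurd hq (by decide))
                    (fun hq => absurd hq (by decide)))
                  (forall_zmod2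
                    (fun _ => hd94)
                    (fun _ => hd53)))
                (forall_zmod2
                  (forall_zmod2
                    (fun _ => hd97)
                    (fun _ => hd23))
                  (forall_zmod2
                    (fun hq => absurd hq (by decide))
                    (fun hq => absurd hq (by decide)))))
              (forall_zmod2
                (forall_zmod2
                  (forall_zmod2
                    (fun _ => hd77)
                    (fun _ => hd20))
                  (forall_zmod2
                    (fun hq => absurd hq (by decide))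
                    (fun hq => absurd hq (by decide))))
                (forall_zmod2
                  (forall_zmod2
                    (fun hq => absurd hq (by decide))
                    (fun hq => absurd hq (by decide)))
                  (forall_zmod2
                    (fun _ => hb7)
                    (fun _ => hd75)))))
            (forall_zmod2
              (forall_zmod2
                (forall_zmod2
                  (forall_zmod2
                    (fun hq => absurd hq (by decide))
                    (fun _ => hd27))
                  (forall_zmod2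
                    (fun _ => hd34)
                    (fun hq => absurd hq (by decide))))
                (forall_zmod2
                  (forall_zmod2
                    (fun _ => hd1)
                    (fun hq => absurd hq (by decide)))
                  (forall_zmod2
                    (fun hq => absurd hq (by decide))
                    (fun _ => hd42))))
              (forall_zmod2
                (forall_zmod2
                  (forall_zmod2
                    (fun _ => hb2)
                    (fun hq => absurd hq (by decide)))
                  (forall_zmod2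
                    (fun hq => absurd hq (by decide))
                    (fun _ => hd109)))
                (forall_zmod2
                  (forall_zmod2
                    (fun hq => absurd hq (by decide))
                    (fun _ => hd60))
                  (forall_zmod2
                    (fun _ => hd90)
                    (fun hq => absurd hq (by decide))))))))))
  intro u hu
  rw [eq_mk u] at hu ⊢
  rw [q_mk] at hu
  exact main _ _ _ _ _ _ _ _ hu

theorem dual_cert : ∀ i j, QuadraticMap.polar (Cfsg.quadFormPlus 4 (ZMod 2)) (dd i) (bb j) = if i = j then 1 else 0 := by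
  decide

theorem line_cert : ∃ u w, Cfsg.quadFormPlus 4 (ZMod 2) u = 1 ∧ Cfsg.quadFormPlus 4 (ZMod 2) w = 1 ∧ Cfsg.quadFormPlus 4 (ZMod 2) (u + w) = 1 :=
  ⟨(mk8 1 1 1 1 1 0 0 0), (mk8 1 0 1 0 1 1 0 0), by decide, by decide, by decide⟩

end Cfsg.Agent.Lib.Helper98.H1.Cert8
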