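import Mathlib
import Cfsg.Agent.Lib.Helper98.H1.Orth
import Cfsg.Agent.Lib.Helper98.H1.CD4
import Cfsg.Agent.Lib.Helper98.H1.Cert4
import Cfsg.Agent.Lib.Helper98.H1.Cert6
import Cfsg.Agent.Lib.Helper98.H1.Cert8
import Cfsg.Agent.Lib.Helper44.Char2Forms

set_option autoImplicit false

/-!
Vanishing of the first cohomology on the natural module for `Ω₄⁻(2)`, `Ω₆⁻(2)`, `Ω₈⁺(2)`.
-/

namespace Cfsg.Agent.Lib.Helper98.H1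

open Module Matrix Cfsg.Agent.Lib.Helper14 Cfsg.Agent.Lib.Helper44

theorem two_eq_zero_zmod2 : (2 : ZMod 2) = 0 := by decide

theorem aniso_zmod2 : ∀ z₁ z₂ : ZMod 2, z₁ ^ 2 + 1 * z₁ * z₂ + 1 * z₂ ^ 2 = 0 → z₁ = 0 ∧ z₂ = 0 := by
  decide

theorem hpair_of_card {ι : Type} [Fintype ι] [DecidableEq ι]
    (Q : QuadraticForm (ZMod 2) (ι → ZMod 2))
    (hQ : (QuadraticMap.polarBilin Q).Nondegenerate) (hcard : Fintype.card ι ≠ 4)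
    (u v : ι → ZMod 2) (hu : Q u ≠ 0) (hv : Q v ≠ 0) :
    reflElt Q hQ u hu * reflElt Q hQ v hv ∈ commutator ↥(Cfsg.isometryGroup (ZMod 2) ⇑Q) := by
  have hl : ∀ x ∈ [u, v], Q x ≠ 0 := by
    intro x hx
    simp only [List.mem_cons, List.not_mem_nil, or_false] at hx
    rcases hx with rfl | rfl <;> assumption
  have := prodElt_mem_commutator_of_even_char2 two_eq_zero_zmod2 Q hQ (Or.inr hcard) [u, v] hl
    ⟨1, rfl⟩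
  rwa [prodElt_cons, prodElt_cons, prodElt_nil, mul_one] at this

/-! ### `Ω₈⁺(2)` -/

theorem h1_plus4
    (f : ↥(Cfsg.Omega (ZMod 2) (Cfsg.quadFormPlus 4 (ZMod 2))) → (Fin 4 ⊕ Fin 4 → ZMod 2))
    (hf : ∀ g h : ↥(Cfsg.Omega (ZMod 2) (Cfsg.quadFormPlus 4 (ZMod 2))), f (g * h) = f g +
      Matrix.mulVec (((g : ↥(Cfsg.isometryGroup (ZMod 2) (Cfsg.quadFormPlus 4 (ZMod 2)))) :
        Matrix.GeneralLinearGroup (Fin 4 ⊕ Fin 4) (ZMod 2)) :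
          Matrix (Fin 4 ⊕ Fin 4) (Fin 4 ⊕ Fin 4) (ZMod 2)) (f h)) :
    ∃ v : Fin 4 ⊕ Fin 4 → ZMod 2,
      ∀ g : ↥(Cfsg.Omega (ZMod 2) (Cfsg.quadFormPlus 4 (ZMod 2))), f g =
      Matrix.mulVec (((g : ↥(Cfsg.isometryGroup (ZMod 2) (Cfsg.quadFormPlus 4 (ZMod 2)))) :
        Matrix.GeneralLinearGroup (Fin 4 ⊕ Fin 4) (ZMod 2)) :
          Matrix (Fin 4 ⊕ Fin 4) (Fin 4 ⊕ Fin 4) (ZMod 2)) v - v :=
  h1_vanish (Cfsg.quadFormPlus 4 (ZMod 2)) (plusQF 4 (ZMod 2)) (plusQF_coe 4 (ZMod 2))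
    (plusQF_nondegenerate 4 (ZMod 2))
    (fun g => exists_eq_prodElt_char2 two_eq_zero_zmod2 _ _ (Or.inr (by simp)) g)
    (fun u v hu hv => hpair_of_card _ _ (by simp) u v hu hv)
    Cert8.line_cert
    (L_of_cert _ (plusQF 4 (ZMod 2)) (plusQF_coe 4 (ZMod 2)) Cert8.bb Cert8.dd Cert8.dual_cert
      Cert8.closure_cert)
    f hf

/-! ### `Ω₆⁻(2)` -/

theorem h1_minus2
    (f : ↥(Cfsg.Omega (ZMod 2) (Cfsg.quadFormMinus 2 (ZMod 2) 1 1)) →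
      ((Fin 2 ⊕ Fin 2) ⊕ Fin 2 → ZMod 2))
    (hf : ∀ g h : ↥(Cfsg.Omega (ZMod 2) (Cfsg.quadFormMinus 2 (ZMod 2) 1 1)), f (g * h) = f g +
      Matrix.mulVec (((g : ↥(Cfsg.isometryGroup (ZMod 2) (Cfsg.quadFormMinus 2 (ZMod 2) 1 1))) :
        Matrix.GeneralLinearGroup ((Fin 2 ⊕ Fin 2) ⊕ Fin 2) (ZMod 2)) :
          Matrix ((Fin 2 ⊕ Fin 2) ⊕ Fin 2) ((Fin 2 ⊕ Fin 2) ⊕ Fin 2) (ZMod 2)) (f h)) :
    ∃ v : (Fin 2 ⊕ Fin 2) ⊕ Fin 2 → ZMod 2,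
      ∀ g : ↥(Cfsg.Omega (ZMod 2) (Cfsg.quadFormMinus 2 (ZMod 2) 1 1)), f g =
      Matrix.mulVec (((g : ↥(Cfsg.isometryGroup (ZMod 2) (Cfsg.quadFormMinus 2 (ZMod 2) 1 1))) :
        Matrix.GeneralLinearGroup ((Fin 2 ⊕ Fin 2) ⊕ Fin 2) (ZMod 2)) :
          Matrix ((Fin 2 ⊕ Fin 2) ⊕ Fin 2) ((Fin 2 ⊕ Fin 2) ⊕ Fin 2) (ZMod 2)) v - v :=
  h1_vanish (Cfsg.quadFormMinus 2 (ZMod 2) 1 1) (minusQF 2 (ZMod 2) 1 1)
    (minusQF_coe 2 (ZMod 2) 1 1)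
    (minusQF_nondegenerate_char2 2 (ZMod 2) two_eq_zero_zmod2 1 1 aniso_zmod2)
    (fun g => exists_eq_prodElt_char2 two_eq_zero_zmod2 _ _ (Or.inr (by simp)) g)
    (fun u v hu hv => hpair_of_card _ _ (by simp) u v hu hv)
    Cert6.line_cert
    (L_of_cert _ (minusQF 2 (ZMod 2) 1 1) (minusQF_coe 2 (ZMod 2) 1 1) Cert6.bb Cert6.dd
      Cert6.dual_cert Cert6.closure_cert)
    f hf

/-! ### `Ω₄⁻(2)` -/

theorem sing_coord : ∀ a b c d a' b' c' d' : ZMod 2,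
    a * b + (c * c + c * d + d * d) = 0 → a' * b' + (c' * c' + c' * d' + d' * d') = 0 →
    (a + a') * (b + b') + ((c + c') * (c + c') + (c + c') * (d + d') + (d + d') * (d + d')) = 0 →
    (a = 0 ∧ b = 0 ∧ c = 0 ∧ d = 0) ∨ (a' = 0 ∧ b' = 0 ∧ c' = 0 ∧ d' = 0) ∨
      (a = a' ∧ b = b' ∧ c = c' ∧ d = d') := by
  decide

theorem conn_coord : ∀ a b c d a' b' c' d' : ZMod 2,
    a * b + (c * c + c * d + d * d) = 1 → a' * b' + (c' * c' + c' * d' + d' * d') = 1 →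
    ∃ x y z t : ZMod 2, x * y + (z * z + z * t + t * t) = 1 ∧
      (a + x) * (b + y) + ((c + z) * (c + z) + (c + z) * (d + t) + (d + t) * (d + t)) = 1 ∧
      (x + a') * (y + b') + ((z + c') * (z + c') + (z + c') * (t + d') + (t + d') * (t + d')) = 1 := by
  decide

theorem mk4_zero : Cert4.mk4 0 0 0 0 = 0 := by
  funext i
  rcases i with (i | i) | i <;> fin_cases i <;> rfl

theorem sing4 (x y : (Fin 1 ⊕ Fin 1) ⊕ Fin 2 → ZMod 2)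
    (hx : Cfsg.quadFormMinus 1 (ZMod 2) 1 1 x = 0) (hy : Cfsg.quadFormMinus 1 (ZMod 2) 1 1 y = 0)
    (hxy : Cfsg.quadFormMinus 1 (ZMod 2) 1 1 (x + y) = 0) : x = 0 ∨ y = 0 ∨ x = y := by
  obtain ⟨a, b, c, d, rfl⟩ : ∃ a b c d, x = Cert4.mk4 a b c d := ⟨_, _, _, _, Cert4.eq_mk x⟩
  obtain ⟨a', b', c', d', rfl⟩ : ∃ a b c d, y = Cert4.mk4 a b c d := ⟨_, _, _, _, Cert4.eq_mk y⟩
  rw [Cert4.q_mk] at hx hy
  rw [Cert4.mk_add, Cert4.q_mk] at hxy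
  rcases sing_coord a b c d a' b' c' d' hx hy hxy with ⟨rfl, rfl, rfl, rfl⟩ |
    ⟨rfl, rfl, rfl, rfl⟩ | ⟨rfl, rfl, rfl, rfl⟩
  · left; exact mk4_zero
  · right; left; exact mk4_zero
  · right; right; rfl

theorem conn4 (u v : (Fin 1 ⊕ Fin 1) ⊕ Fin 2 → ZMod 2)
    (hu : Cfsg.quadFormMinus 1 (ZMod 2) 1 1 u = 1) (hv : Cfsg.quadFormMinus 1 (ZMod 2) 1 1 v = 1) :
    ∃ w, Cfsg.quadFormMinus 1 (ZMod 2) 1 1 w = 1 ∧
      Cfsg.quadFormMinus 1 (ZMod 2) 1 1 (u + w) = 1 ∧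
      Cfsg.quadFormMinus 1 (ZMod 2) 1 1 (w + v) = 1 := by
  obtain ⟨a, b, c, d, rfl⟩ : ∃ a b c d, u = Cert4.mk4 a b c d := ⟨_, _, _, _, Cert4.eq_mk u⟩
  obtain ⟨a', b', c', d', rfl⟩ : ∃ a b c d, v = Cert4.mk4 a b c d := ⟨_, _, _, _, Cert4.eq_mk v⟩
  rw [Cert4.q_mk] at hu hv
  obtain ⟨x, y, z, t, h1, h2, h3⟩ := conn_coord a b c d a' b' c' d' hu hv
  refine ⟨Cert4.mk4 x y z t, ?_, ?_, ?_⟩
  · rw [Cert4.q_mk]; exact h1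
  · rw [Cert4.mk_add, Cert4.q_mk]; exact h2
  · rw [Cert4.mk_add, Cert4.q_mk]; exact h3

theorem nohalf4 (W : Submodule (ZMod 2) ((Fin 1 ⊕ Fin 1) ⊕ Fin 2 → ZMod 2))
    (hts : ∀ y ∈ W, (minusQF 1 (ZMod 2) 1 1) y = 0) :
    2 * finrank (ZMod 2) W ≠ finrank (ZMod 2) ((Fin 1 ⊕ Fin 1) ⊕ Fin 2 → ZMod 2) := by
  intro hdim
  rw [Module.finrank_fintype_fun_eq_card] at hdim
  have hcard : Fintype.card ((Fin 1 ⊕ Fin 1) ⊕ Fin 2) = 4 := by simp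
  rw [hcard] at hdim
  have hW2 : finrank (ZMod 2) W = 2 := by omega
  have hne : W ≠ ⊥ := by
    intro h
    rw [h, finrank_bot] at hW2
    omega
  obtain ⟨x, hxW, hx0⟩ := Submodule.exists_mem_ne_zero_of_ne_bot hne
  rw [minusQF_coe] at hts
  have hle : W ≤ Submodule.span (ZMod 2) {x} := by
    intro y hy
    rcases sing4 x y (hts x hxW) (hts y hy) (hts _ (W.add_mem hxW hy)) with h | h | h
    · exact absurd h hx0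
    · rw [h]; exact Submodule.zero_mem _
    · rw [← h]; exact Submodule.mem_span_singleton_self x
  have h1 := Submodule.finrank_mono hle
  have h2 := finrank_span_singleton_le_one (F := ZMod 2) x
  omega

theorem h1_minus1
    (f : ↥(Cfsg.Omega (ZMod 2) (Cfsg.quadFormMinus 1 (ZMod 2) 1 1)) →
      ((Fin 1 ⊕ Fin 1) ⊕ Fin 2 → ZMod 2))
    (hf : ∀ g h : ↥(Cfsg.Omega (ZMod 2) (Cfsg.quadFormMinus 1 (ZMod 2) 1 1)), f (g * h) = f g +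
      Matrix.mulVec (((g : ↥(Cfsg.isometryGroup (ZMod 2) (Cfsg.quadFormMinus 1 (ZMod 2) 1 1))) :
        Matrix.GeneralLinearGroup ((Fin 1 ⊕ Fin 1) ⊕ Fin 2) (ZMod 2)) :
          Matrix ((Fin 1 ⊕ Fin 1) ⊕ Fin 2) ((Fin 1 ⊕ Fin 1) ⊕ Fin 2) (ZMod 2)) (f h)) :
    ∃ v : (Fin 1 ⊕ Fin 1) ⊕ Fin 2 → ZMod 2,
      ∀ g : ↥(Cfsg.Omega (ZMod 2) (Cfsg.quadFormMinus 1 (ZMod 2) 1 1)), f g =
      Matrix.mulVec (((g : ↥(Cfsg.isometryGroup (ZMod 2) (Cfsg.quadFormMinus 1 (ZMod 2) 1 1))) :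
        Matrix.GeneralLinearGroup ((Fin 1 ⊕ Fin 1) ⊕ Fin 2) (ZMod 2)) :
          Matrix ((Fin 1 ⊕ Fin 1) ⊕ Fin 2) ((Fin 1 ⊕ Fin 1) ⊕ Fin 2) (ZMod 2)) v - v :=
  h1_vanish (Cfsg.quadFormMinus 1 (ZMod 2) 1 1) (minusQF 1 (ZMod 2) 1 1)
    (minusQF_coe 1 (ZMod 2) 1 1)
    (minusQF_nondegenerate_char2 1 (ZMod 2) two_eq_zero_zmod2 1 1 aniso_zmod2)
    (fun g => exists_eq_prodElt_nohalf _ _ nohalf4 g)
    (fun u v hu hv => hpair_of_conn _ _ (by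
      rw [minusQF_coe]
      exact conn4) u v hu hv)
    Cert4.line_cert
    (L_of_cert _ (minusQF 1 (ZMod 2) 1 1) (minusQF_coe 1 (ZMod 2) 1 1) Cert4.bb Cert4.dd
      Cert4.dual_cert Cert4.closure_cert)
    f hf

end Cfsg.Agent.Lib.Helper98.H1
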